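import Mathlib
import Cfsg.Agent.Lib.Helper96.HallSymStmt

/-!
# S2536 piece B0 (helper71): a transitive imprimitive group has a non-trivial system of blocks.
-/

set_option autoImplicit false

namespace Cfsg.Agent.Lib.Helper71.HSB0

open Equiv Cfsg.Agent.Lib.Helper96.HallSymStmt
open scoped Pointwise

/-- [B0] -/
theorem main : B0 := by
  intro Ω _ _ H htrans hnp
  classical
  have hpt : MulAction.IsPretransitive H Ω := ⟨fun x y => by
    obtain ⟨h, hh, hxy⟩ := htrans x y
    exact ⟨⟨h, hh⟩, hxy⟩⟩
  -- a non-trivial block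
  have hex : ∃ B : Set Ω, MulAction.IsBlock H B ∧ ¬ MulAction.IsTrivialBlock B := by
    by_contra hcon
    push_neg at hcon
    exact hnp ⟨fun {B} hB => hcon B hB⟩
  obtain ⟨B, hB, hBnt⟩ := hex
  have hBne : B.Nonempty := by
    by_contra h
    rw [Set.not_nonempty_iff_eq_empty] at h
    exact hBnt (Or.inl (by rw [h]; exact Set.subsingleton_empty))
  have hsys := hB.isBlockSystem hBne
  have hpart : Setoid.IsPartition (Set.range fun g : H => g • B) := hsys.1
  have huniq := hpart.2
  let ι : Type := ↥(Set.range fun g : H => g • B)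
  letI : Fintype ι := Fintype.ofFinite ι
  let f : Ω → ι := fun x =>
    ⟨Classical.choose (huniq x).exists, (Classical.choose_spec (huniq x).exists).1⟩
  have hf_mem : ∀ x, x ∈ ((f x : ι) : Set Ω) :=
    fun x => (Classical.choose_spec (huniq x).exists).2
  have hf_eq : ∀ (x : Ω) (i : ι), x ∈ (i : Set Ω) → f x = i := by
    intro x i hx
    apply Subtype.ext
    exact (huniq x).unique ⟨(f x).2, hf_mem x⟩ ⟨i.2, hx⟩
  have hfiber : ∀ i : ι, f ⁻¹' {i} = (i : Set Ω) := by
    intro i
    ext x
    constructor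
    · intro hx
      have h1 := hf_mem x
      rw [Set.mem_preimage, Set.mem_singleton_iff] at hx
      rw [hx] at h1
      exact h1
    · intro hx
      exact hf_eq x i hx
  have hcard : ∀ i : ι, (f ⁻¹' {i}).ncard = B.ncard := by
    intro i
    rw [hfiber]
    obtain ⟨g, hg⟩ := i.2
    rw [← hg]
    exact Set.ncard_smul_set g B
  have hsurj : Function.Surjective f := by
    intro i
    obtain ⟨g, hg⟩ := i.2
    obtain ⟨b, hb⟩ := hBne
    refine ⟨g • b, hf_eq _ i ?_⟩
    rw [← hg]
    exact Set.smul_mem_smul_set hb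
  have h1a : 1 < B.ncard := by
    by_contra h
    push_neg at h
    apply hBnt
    left
    exact Set.ncard_le_one_iff_subsingleton.mp h
  have hacard : B.ncard < Fintype.card Ω := by
    have hne : B ≠ Set.univ := fun h => hBnt (Or.inr h)
    have hss : B ⊂ Set.univ := Set.ssubset_univ_iff.mpr hne
    have := Set.ncard_lt_ncard hss
    rwa [Set.ncard_univ, Nat.card_eq_fintype_card] at this
  have hmul : Fintype.card Ω = B.ncard * Fintype.card ι := by
    have e := Fintype.card_congr (Equiv.sigmaFiberEquiv f).symm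
    rw [e, Fintype.card_sigma]
    have : ∀ i : ι, Fintype.card {x // f x = i} = B.ncard := by
      intro i
      rw [← hcard i, ← Nat.card_eq_fintype_card]
      rfl
    rw [Finset.sum_congr rfl (fun i _ => this i), Finset.sum_const, Finset.card_univ, smul_eq_mul,
      mul_comm]
  refine ⟨ι, inferInstance, f, B.ncard, hsurj, hcard, h1a, hacard, hmul, ?_⟩
  intro h hh x y hxy
  obtain ⟨g, hg⟩ := (f x).2
  have hx : x ∈ g • B := by
    have := hf_mem x
    rw [← hg] at this
    exact this
  have hy : y ∈ g • B := by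
    have := hf_mem y
    rw [← hxy, ← hg] at this
    exact this
  let j : ι := ⟨(⟨h, hh⟩ * g : H) • B, ⟨⟨h, hh⟩ * g, rfl⟩⟩
  have hjx : h x ∈ (j : Set Ω) := by
    show h x ∈ (⟨h, hh⟩ * g : H) • B
    rw [mul_smul]
    exact Set.smul_mem_smul_set (a := (⟨h, hh⟩ : H)) hx
  have hjy : h y ∈ (j : Set Ω) := by
    show h y ∈ (⟨h, hh⟩ * g : H) • B
    rw [mul_smul]
    exact Set.smul_mem_smul_set (a := (⟨h, hh⟩ : H)) hy
  rw [hf_eq _ j hjx, hf_eq _ j hjy]

end Cfsg.Agent.Lib.Helper71.HSB0
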