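import Mathlib
import Cfsg.Agent.Lib.Helper19.BTGen

/-!
# S2369, piece `ARITH`: the primes of the orders of `B`, `P_A`, `P_B`.
-/

set_option autoImplicit false

namespace Cfsg.Agent.Lib.Helper71.BTARITH

theorem main : Cfsg.Agent.Lib.Helper19.BTGen.Arith := by
  intro q p hp hq hnd
  obtain ⟨k, rfl⟩ : ∃ k, q = k + 1 := ⟨q - 1, by omega⟩
  have hfac : (k + 1) ^ 4 - 1 = k * (k + 2) * ((k + 1) ^ 2 + 1) := by
    have h : (k + 1) ^ 4 = k * (k + 2) * ((k + 1) ^ 2 + 1) + 1 := by ring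
    omega
  have hk : k + 1 - 1 = k := by omega
  rw [hfac] at hnd
  rw [hk]
  have hq' : ¬ p ∣ k + 1 := fun h => hnd (Dvd.dvd.mul_right h _)
  have hk' : ¬ p ∣ k := fun h =>
    hnd (Dvd.dvd.mul_left (Dvd.dvd.mul_right (Dvd.dvd.mul_right h _) _) _)
  have hk2 : ¬ p ∣ k + 2 := fun h =>
    hnd (Dvd.dvd.mul_left (Dvd.dvd.mul_right (Dvd.dvd.mul_left h _) _) _)
  have hk3 : ¬ p ∣ (k + 1) ^ 2 + 1 := fun h =>
    hnd (Dvd.dvd.mul_left (Dvd.dvd.mul_left h _) _)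
  have h1 : ¬ p ∣ (k + 1) ^ 12 * k ^ 2 := by
    intro h
    rcases (Nat.Prime.dvd_mul hp).1 h with h | h
    · exact hq' (hp.dvd_of_dvd_pow h)
    · exact hk' (hp.dvd_of_dvd_pow h)
  refine ⟨h1, ?_, ?_⟩
  · intro h
    have e : (k + 1) ^ 12 * k ^ 2 + (k + 1) * ((k + 1) ^ 12 * k ^ 2)
        = (k + 1) ^ 12 * k ^ 2 * (k + 2) := by ring
    rw [e] at h
    rcases (Nat.Prime.dvd_mul hp).1 h with h | h
    · exact h1 h
    · exact hk2 h
  · intro h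
    have e : (k + 1) ^ 12 * k ^ 2 + (k + 1) ^ 2 * ((k + 1) ^ 12 * k ^ 2)
        = (k + 1) ^ 12 * k ^ 2 * ((k + 1) ^ 2 + 1) := by ring
    rw [e] at h
    rcases (Nat.Prime.dvd_mul hp).1 h with h | h
    · exact h1 h
    · exact hk3 h

end Cfsg.Agent.Lib.Helper71.BTARITH
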