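import Mathlib
import Cfsg.Agent.Lib.Helper19.BTGen

/-!
# S2369, piece `PRIMEPOW`: a power of prime order.
-/

set_option autoImplicit false

namespace Cfsg.Agent.Lib.Helper71.BTPRIMEPOW

universe u

theorem main : Cfsg.Agent.Lib.Helper19.BTGen.PrimePow.{u} := by
  intro G _ b p hp
  rw [Nat.mem_primeFactors] at hp
  exact ⟨orderOf b / p, orderOf_pow_orderOf_div hp.2.2 hp.2.1⟩

end Cfsg.Agent.Lib.Helper71.BTPRIMEPOW
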