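import Mathlib
import Cfsg.Agent.Lib.Lead.BrHalfStmt
import Cfsg.Agent.Lib.CT.ClassMult

/-!
# S4504 part C, piece CS (helper71): class sums act as scalars on an irreducible character.
-/

set_option autoImplicit false

namespace Cfsg.Agent.Lib.Helper71.BrCCS

open Cfsg Cfsg.Agent.Lib.Lead
open scoped ComplexConjugate Classical

universe u

/-- [CS] -/
theorem main : BrHalf.CS.{u} := by
  intro L _ _ θ hθ w hw g
  have key : ∀ h : L, ∑ u : L, w u * θ (g * u) = ∑ u : L, w u * θ (g * (h * u * h⁻¹)) := by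
    intro h
    rw [← Equiv.sum_comp (MulAut.conj h).toEquiv (fun u => w u * θ (g * u))]
    apply Finset.sum_congr rfl
    intro u _
    show w (h * u * h⁻¹) * θ (g * (h * u * h⁻¹)) = _
    rw [hw u h]
  have h1 : (Nat.card L : ℂ) * ∑ u : L, w u * θ (g * u) =
      ∑ h : L, ∑ u : L, w u * θ (g * (h * u * h⁻¹)) := by
    rw [Finset.sum_congr rfl (fun h _ => (key h).symm), Finset.sum_const, Finset.card_univ,
      nsmul_eq_mul, Nat.card_eq_fintype_card]
  rw [Finset.sum_comm] at h1
  have h2 : ∀ u : L, ∑ h : L, w u * θ (g * (h * u * h⁻¹)) =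
      w u * ((Nat.card L : ℂ) * θ g * θ u / θ 1) := by
    intro u
    rw [← Finset.mul_sum, Cfsg.Agent.Lib.CT.ClassMult.irr_schur_average hθ g u]
  rw [Finset.sum_congr rfl (fun u _ => h2 u)] at h1
  have hne : (Nat.card L : ℂ) ≠ 0 := Nat.cast_ne_zero.mpr Nat.card_pos.ne'
  apply mul_left_cancel₀ hne
  rw [h1, Finset.mul_sum, Finset.mul_sum]
  apply Finset.sum_congr rfl
  intro u _
  ring

end Cfsg.Agent.Lib.Helper71.BrCCS
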