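import Mathlib
import Cfsg.Agent.Lib.Lead.BrHalfStmt

/-!
# S4504 part C, piece LE (helper71): the key inequality `2 n |ξ g| ≤ T g` for `p`-regular `g`.
-/

set_option autoImplicit false

namespace Cfsg.Agent.Lib.Helper71.BrCLE

open Cfsg Cfsg.Agent.Lib.Lead
open scoped ComplexConjugate Classical

universe u

theorem norm_of_mul_conj {z : ℂ} {r : ℝ} (hr : 0 ≤ r) (h : z * conj z = (r : ℂ)) :
    ‖z‖ = Real.sqrt r := by
  rw [Complex.mul_conj, Complex.normSq_eq_norm_sq] at h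
  have h2 : ‖z‖ ^ 2 = r := by exact_mod_cast h
  rw [← h2, Real.sqrt_sq (norm_nonneg z)]

/-- [LE] from [KapSum], [DSq], [PerDiff] -/
theorem main (hKap : BrHalf.KapSum.{u}) (hDSq : BrHalf.DSq.{u}) (hPerDiff : BrHalf.PerDiff) :
    BrHalf.LE.{u} := by
  intro L _ _ p _ c k hk g hg
  have hp : p.Prime := Fact.out
  have hp2 : p ≠ 2 := by have := c.hp5; omega
  have hsum := hKap p c k hk g hg
  have hAB := hPerDiff p hp2 c.ζ c.hζ 1 k
    (by intro h; exact hp.one_lt.ne' (Nat.dvd_one.mp h)) hk.2.1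
  rw [one_mul] at hAB
  have hsq : 0 < Real.sqrt (p : ℝ) := Real.sqrt_pos.mpr (by exact_mod_cast hp.pos)
  have hnormAB : ‖BrHalf.per p c.ζ 1 - BrHalf.per p c.ζ k‖ = Real.sqrt (p : ℝ) :=
    norm_of_mul_conj (by positivity) (by exact_mod_cast hAB)
  have hnormD : ∀ h : L, ‖c.D k h‖ = if p ∣ orderOf h then Real.sqrt (p : ℝ) else 0 := by
    intro h
    have h1 := hDSq p c k hk h
    split_ifs with hh
    · rw [if_pos hh] at h1
      exact norm_of_mul_conj (by positivity) (by exact_mod_cast h1)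
    · rw [if_neg hh] at h1
      have := norm_of_mul_conj (r := 0) le_rfl (by exact_mod_cast h1)
      rw [this, Real.sqrt_zero]
  have hkap : ∀ u : L, ‖c.kap u‖ = if orderOf u = p then 1 else 0 := by
    intro u
    unfold BrHalf.Ctx.kap
    split_ifs <;> simp
  have hterm : ∀ u : L, ‖c.kap u * c.D k (g * u)‖ =
      if (orderOf u = p ∧ p ∣ orderOf (g * u)) then Real.sqrt (p : ℝ) else 0 := by
    intro u
    rw [norm_mul, hkap, hnormD]
    by_cases h1 : orderOf u = p <;> by_cases h2 : p ∣ orderOf (g * u) <;> simp [h1, h2]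
  have hle : ‖∑ u : L, c.kap u * c.D k (g * u)‖ ≤ (c.T g : ℝ) * Real.sqrt (p : ℝ) := by
    calc ‖∑ u : L, c.kap u * c.D k (g * u)‖ ≤ ∑ u : L, ‖c.kap u * c.D k (g * u)‖ :=
          norm_sum_le _ _
      _ = ∑ u : L, if (orderOf u = p ∧ p ∣ orderOf (g * u)) then Real.sqrt (p : ℝ) else 0 :=
          Finset.sum_congr rfl (fun u _ => hterm u)
      _ = (c.T g : ℝ) * Real.sqrt (p : ℝ) := by
          rw [Finset.sum_ite, Finset.sum_const, Finset.sum_const_zero, add_zero, nsmul_eq_mul]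
          rfl
  rw [hsum] at hle
  have hn : ‖2 * (c.n : ℂ) * (BrHalf.per p c.ζ 1 - BrHalf.per p c.ζ k) * c.ξ g‖ =
      2 * (c.n : ℝ) * ‖c.ξ g‖ * Real.sqrt (p : ℝ) := by
    rw [norm_mul, norm_mul, norm_mul, hnormAB]
    simp
    ring
  rw [hn] at hle
  exact le_of_mul_le_mul_right hle hsq

end Cfsg.Agent.Lib.Helper71.BrCLE
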