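import Mathlib
import Cfsg.Agent.Lib.Lead.BrHalfStmt
import Cfsg.Agent.Lib.CT.Wedderburn

/-!
# S4504 part C, piece Mom2 (helper71): the second moment of an irreducible character.
-/

set_option autoImplicit false

namespace Cfsg.Agent.Lib.Helper71.BrCMom2

open Cfsg Cfsg.Agent.Lib.Lead
open scoped ComplexConjugate Classical

universe u

/-- [Mom2] -/
theorem main : BrHalf.Mom2.{u} := by
  intro L _ _ p _ c
  have h := Cfsg.Agent.Lib.CT.Wedderburn.irr_orthonormal (⟨c.ξ, c.hξ⟩ : IrrCharacter L)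
    ⟨c.ξ, c.hξ⟩
  rw [if_pos rfl] at h
  unfold classInner at h
  have hne : (Nat.card L : ℂ) ≠ 0 := Nat.cast_ne_zero.mpr Nat.card_pos.ne'
  have h2 : ∑ g : L, c.ξ g * conj (c.ξ g) = (Nat.card L : ℂ) := by
    have h3 := congrArg (fun t => (Nat.card L : ℂ) * t) h
    simp only [mul_one] at h3
    rw [← mul_assoc, mul_inv_cancel₀ hne, one_mul] at h3
    exact h3
  apply Complex.ofReal_injective
  rw [Complex.ofReal_sum, Complex.ofReal_natCast, ← h2]
  apply Finset.sum_congr rfl
  intro g _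
  rw [Complex.mul_conj, Complex.normSq_eq_norm_sq]

end Cfsg.Agent.Lib.Helper71.BrCMom2
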