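import Mathlib
import Cfsg.Agent.Lib.Lead.BrHalfStmt

/-!
# S4504 part C, piece SumZ (helper71): the central contribution to the fourth moment.
-/

set_option autoImplicit false

namespace Cfsg.Agent.Lib.Helper71.BrCSumZ

open Cfsg Cfsg.Agent.Lib.Lead
open scoped ComplexConjugate Classical

universe u

/-- [SumZ] from [XiCent] -/
theorem main (hXi : BrHalf.XiCent.{u}) : BrHalf.SumZ.{u} := by
  intro L _ _ p _ c
  obtain ⟨-, h2⟩ := hXi p c
  have hterm : ∀ g : L, (if g ∈ Subgroup.center L then ‖c.ξ g‖ ^ 4 - ‖c.ξ g‖ ^ 2 else 0) =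
      if g ∈ Subgroup.center L then ((c.e : ℝ) ^ 4 - (c.e : ℝ) ^ 2) else 0 := by
    intro g
    split_ifs with hg
    · rw [(h2 g hg).1]
    · rfl
  rw [Finset.sum_congr rfl (fun g _ => hterm g), Finset.sum_ite, Finset.sum_const,
    Finset.sum_const_zero, add_zero, nsmul_eq_mul]
  congr 1
  have : (Finset.univ.filter (fun g : L => g ∈ Subgroup.center L)).card =
      Nat.card (Subgroup.center L) := by
    rw [Nat.card_eq_fintype_card, Fintype.card_subtype]
  rw [this]
  rfl

end Cfsg.Agent.Lib.Helper71.BrCSumZ
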