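import Mathlib
import Cfsg.Agent.Lib.Helper76.BrRBStmt
import Cfsg.Agent.Lib.CT.Kernel
import Cfsg.Agent.Lib.CT.Wedderburn
import Cfsg.Agent.Lib.Helper81.Mult

/-!
# S4504, piece VZ: the `p`-regular elements of `C_L(P)` are central

`Φ = ξ * conj ξ` is a class function, `Φ = ∑_ψ |L|⁻¹ mlt ξ ψ * ψ`; every constituent takes the
value `ψ 1` at a `p`-regular `k ∈ C`, hence `|ξ k| = ξ 1` and `k` is central (`ξ` is faithful).
-/

set_option autoImplicit false
set_option linter.style.haveILetI false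

namespace Cfsg.Agent.Lib.Helper71.BrRBVZ

open Cfsg Cfsg.Agent.Lib.Helper76.BrRB Cfsg.Agent.Lib.CT.Wedderburn
open scoped ComplexConjugate

universe u

theorem main : Cfsg.Agent.Lib.Helper76.BrRB.VZ.{u} := by
  intro L _ _ p _ c hB k hk hpk
  classical
  haveI : Finite (IrrCharacter L) := finite_irrCharacter L
  letI : Fintype (IrrCharacter L) := Fintype.ofFinite _
  have hξc : IsCharacter L c.ξ := isCharacter_of_irr c.hξ
  have hΦcl : ∀ g h : L, (fun g => c.ξ g * conj (c.ξ g)) (h * g * h⁻¹)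
      = (fun g => c.ξ g * conj (c.ξ g)) g := by
    intro g h
    show c.ξ (h * g * h⁻¹) * conj (c.ξ (h * g * h⁻¹)) = c.ξ g * conj (c.ξ g)
    rw [Cfsg.Agent.Lib.Helper81.Mult.char_conj hξc]
  have hm : ∀ χ : IrrCharacter L,
      Cfsg.Agent.Lib.Helper81.Mult.multC (fun g => c.ξ g * conj (c.ξ g)) χ
        = (Nat.card L : ℂ)⁻¹ * mlt c.ξ (χ : L → ℂ) := by
    intro χ
    rw [Cfsg.Agent.Lib.Helper81.Mult.multC_def]
    unfold mlt
    congr 1
    refine Finset.sum_congr rfl fun g _ => ?_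
    rw [char_apply_inv (isCharacter_of_irr χ.2)]
  have hterm : ∀ χ : IrrCharacter L,
      Cfsg.Agent.Lib.Helper81.Mult.multC (fun g => c.ξ g * conj (c.ξ g)) χ * χ.1 k
        = Cfsg.Agent.Lib.Helper81.Mult.multC (fun g => c.ξ g * conj (c.ξ g)) χ * χ.1 1 := by
    intro χ
    by_cases h0 : mlt c.ξ (χ : L → ℂ) = 0
    · rw [hm, h0, mul_zero, zero_mul, zero_mul]
    · by_cases h1 : ∃ g, (χ : L → ℂ) g ≠ 1
      · rw [(hB χ h1 h0).2.2 k hk hpk]
      · have h2 : ∀ g, (χ : L → ℂ) g = 1 := fun g => by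
          by_contra hg
          exact h1 ⟨g, hg⟩
        rw [h2 k, h2 1]
  have hΦk : c.ξ k * conj (c.ξ k) = c.ξ 1 * conj (c.ξ 1) := by
    have e1 := Cfsg.Agent.Lib.Helper81.Mult.classFn_expand (fun g => c.ξ g * conj (c.ξ g)) hΦcl k
    have e2 := Cfsg.Agent.Lib.Helper81.Mult.classFn_expand (fun g => c.ξ g * conj (c.ξ g)) hΦcl 1
    rw [e1, e2]
    exact Finset.sum_congr rfl (fun χ _ => hterm χ)
  have h1 : c.ξ 1 = (charDegree c.ξ : ℂ) := (char_natCast_charDegree hξc).symm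
  have hnorm : ‖c.ξ k‖ = (c.ξ 1).re := by
    rw [Complex.mul_conj, Complex.mul_conj] at hΦk
    have h3 : Complex.normSq (c.ξ k) = Complex.normSq (c.ξ 1) := by exact_mod_cast hΦk
    rw [Complex.normSq_eq_norm_sq, Complex.normSq_eq_norm_sq] at h3
    have h4 : ‖c.ξ k‖ = ‖c.ξ 1‖ := (sq_eq_sq₀ (norm_nonneg _) (norm_nonneg _)).mp h3
    rw [h4, h1]
    simp
  exact Cfsg.Agent.Lib.CT.Kernel.mem_center_of_norm_eq hξc c.hfaith hnorm

end Cfsg.Agent.Lib.Helper71.BrRBVZ
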