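import Mathlib
import Cfsg.Agent.Lib.Helper92.D11Stmt
import Cfsg.Agent.S1013

/-!
# S0679 piece EVENSUB (helper71): the subgroup of even permutations of a transitive non-solvable
group of degree 11 containing odd permutations is transitive, non-solvable, of index 2.
-/

set_option autoImplicit false

namespace Cfsg.Agent.Lib.Helper71.D11EVENSUB

open Equiv MulAction Cfsg.Agent.Lib.Helper92.D11Stmt

universe u

/-- [EVENSUB] -/
theorem main : EvenSub.{u} := by
  intro α _ _ hα G hG hsolv hnot
  have hnt : Nontrivial α := by
    apply Fintype.one_lt_card_iff_nontrivial.mp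
    rw [hα]; norm_num
  set K : Subgroup G := (alternatingGroup α).subgroupOf G with hKdef
  have hKn : K.Normal := Subgroup.Normal.subgroupOf (alternatingGroup.normal (α := α)) G
  have hKeq : K = (G ⊓ alternatingGroup α).subgroupOf G :=
    (Subgroup.inf_subgroupOf_left (alternatingGroup α) G).symm
  let e : K ≃* (G ⊓ alternatingGroup α : Subgroup (Perm α)) :=
    (MulEquiv.subgroupCongr hKeq).trans (Subgroup.subgroupOfEquivOfLe inf_le_left)
  have hKcard : Nat.card K = Nat.card (G ⊓ alternatingGroup α : Subgroup (Perm α)) :=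
    Nat.card_congr e.toEquiv
  have hidx : K.index = 2 := by
    have h1 : (alternatingGroup α).relIndex G ∣ (alternatingGroup α).index :=
      Subgroup.relIndex_dvd_index_of_normal (alternatingGroup α) G
    rw [alternatingGroup.index_eq_two] at h1
    have h2 : (alternatingGroup α).relIndex G ≠ 1 := by
      intro h
      exact hnot (Subgroup.relIndex_eq_one.mp h)
    have h3 : K.index = (alternatingGroup α).relIndex G := rfl
    rw [h3]
    rcases (Nat.dvd_prime Nat.prime_two).mp h1 with h | h
    · exact absurd h h2
    · exact h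
  have hcard : Nat.card G = 2 * Nat.card K := by
    have := Subgroup.card_mul_index K
    rw [hidx] at this
    omega
  have hKsolv : ¬ Group.IsSolvable K := by
    intro hK
    apply hsolv
    have hqc : Nat.card (G ⧸ K) = 2 := hidx
    have hp2 : Fact (Nat.Prime 2) := ⟨Nat.prime_two⟩
    have hcyc : IsCyclic (G ⧸ K) := isCyclic_of_prime_card hqc
    have hqsolv : Group.IsSolvable (G ⧸ K) := Group.isSolvable_of_comm
      (fun a b => (IsCyclic.isMulCommutative (α := G ⧸ K)).is_comm.comm a b)
    exact Group.isSolvable_of_ker_le_range K.subtype (QuotientGroup.mk' K) (by simp)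
  have hKbot : K ≠ ⊥ := by
    intro hK
    apply hKsolv
    rw [hK]
    infer_instance
  have hp : (Nat.card α).Prime := by
    rw [Nat.card_eq_fintype_card, hα]; norm_num
  have hKt : IsPretransitive K α := Cfsg.Agent.S1013.trans_of_normal hp K hKbot
  refine ⟨?_, ?_, ?_⟩
  · refine ⟨fun x y => ?_⟩
    obtain ⟨k, hk⟩ := exists_smul_eq K x y
    exact ⟨⟨((k : G) : Perm α), ⟨(k : G).2, Subgroup.mem_subgroupOf.mp k.2⟩⟩, hk⟩
  · intro hs
    apply hKsolv
    exact Group.isSolvable_of_isSolvable_injective (f := e.toMonoidHom) e.injective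
  · rw [hcard, hKcard]

end Cfsg.Agent.Lib.Helper71.D11EVENSUB
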