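import Mathlib
import Cfsg.Agent.Lib.Helper92.D11Stmt
import Cfsg.Agent.Lib.Helper58.MUSHARP4

/-!
# S0679 piece FIN4 (helper71): a group of order 7920 and degree 11 whose non-trivial elements
fix at most three points is sharply 4-transitive.
-/

set_option autoImplicit false

namespace Cfsg.Agent.Lib.Helper71.D11FIN4

open Equiv Cfsg.Agent.Lib.Helper92.D11Stmt

universe u

/-- [FIN4] -/
theorem main : Fin4.{u} := by
  intro α _ _ hα G hG hsupp
  have hfix : ∀ g : G, g ≠ 1 → Nat.card (MulAction.fixedBy α g) ≤ 3 := by
    intro g hg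
    have hg' : (g : Perm α) ≠ 1 := fun h => hg (Subtype.ext h)
    have h8 := hsupp (g : Perm α) g.2 hg'
    have hset : MulAction.fixedBy α g = (((g : Perm α).supportᶜ : Finset α) : Set α) := by
      ext x
      simp only [MulAction.mem_fixedBy, Finset.coe_compl, Set.mem_compl_iff, Finset.mem_coe,
        Perm.mem_support, not_not]
      rfl
    rw [Nat.card_coe_set_eq, hset, Set.ncard_coe_finset, Finset.card_compl, hα]
    omega
  have hsharp := Cfsg.Agent.Lib.Helper58.MUSHARP4.main.{u} G α hG hα hfix
  constructor
  · rw [MulAction.isMultiplyPretransitive_iff]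
    intro x y
    obtain ⟨g, hg, -⟩ := hsharp x y x.injective y.injective
    refine ⟨g, ?_⟩
    ext i
    exact hg i
  · intro x
    rw [Subgroup.eq_bot_iff_forall]
    intro g hg
    have hgx : g • x = x := MulAction.mem_stabilizer_iff.mp hg
    obtain ⟨g0, -, huniq⟩ := hsharp x x x.injective x.injective
    have h1 : g = g0 := huniq g (fun i => by
      have := congrArg (fun e : Fin 4 ↪ α => e i) hgx
      exact this)
    have h2 : (1 : G) = g0 := huniq 1 (fun i => one_smul _ _)
    rw [h1, ← h2]

end Cfsg.Agent.Lib.Helper71.D11FIN4
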