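import Mathlib
import Cfsg.Agent.Lib.Helper92.D11Stmt
import Cfsg.Agent.Lib.Helper17.Sylow
import Cfsg.Agent.S0676

/-!
# S0679 piece NO1320 (helper71): there is no transitive non-solvable group of degree 11 and
order 1320.
-/

set_option autoImplicit false

namespace Cfsg.Agent.Lib.Helper71.D11NO1320

open Equiv MulAction Cfsg.Agent.Lib.Helper92.D11Stmt

universe u

/-- [NO1320] from [CARDNORM]. -/
theorem main : CardNorm.{u} → No1320.{u} := by
  intro hCN α _ _ hα G hG hsolv hcard
  have : Fact (Nat.Prime 11) := ⟨by norm_num⟩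
  have : Finite G := Nat.finite_of_card_ne_zero (by rw [hcard]; norm_num)
  obtain ⟨P⟩ : Nonempty (Sylow 11 G) := inferInstance
  have hP : Nat.card (P : Subgroup G) = 11 := by
    have := Cfsg.Agent.Lib.Helper17.Sylow.card_sylow_subgroup (p := 11) (k := 1) (m := 120)
      (G := G) (by rw [hcard]; norm_num) (by norm_num) P
    simpa using this
  obtain ⟨d, hd, hN⟩ := hCN α hα G (P : Subgroup G) hP
  have hidx : Nat.card (Sylow 11 G) = (Subgroup.normalizer ((P : Subgroup G) : Set G)).index :=
    P.card_eq_index_normalizer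
  have hmod : Nat.card (Sylow 11 G) ≡ 1 [MOD 11] := card_sylow_modEq_one 11 G
  have hmul := Subgroup.card_mul_index (Subgroup.normalizer ((P : Subgroup G) : Set G))
  rw [← hidx, hN, hcard] at hmul
  have hd10 : d ≤ 10 := Nat.le_of_dvd (by norm_num) hd
  have hdpos : 0 < d := Nat.pos_of_dvd_of_pos hd (by norm_num)
  have hmod' : Nat.card (Sylow 11 G) % 11 = 1 := hmod
  have hd' : d = 10 := by
    generalize Nat.card (Sylow 11 G) = s at hmul hmod'
    interval_cases d
    all_goals first | rfl | (exfalso; revert hd; decide) | (exfalso; omega)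
  have heven : Even (Nat.card (Subgroup.normalizer ((P : Subgroup G) : Set G))) := by
    rw [hN, hd']; decide
  have h3 : IsMultiplyPretransitive G α 3 :=
    Cfsg.Agent.S0676.result (p := 11) hα G hsolv P heven
  have hemb : Nat.card (Fin 3 ↪ α) = 990 := by
    rw [Nat.card_eq_fintype_card, Fintype.card_embedding_eq, hα, Fintype.card_fin]; rfl
  obtain ⟨x⟩ : Nonempty (Fin 3 ↪ α) := (Nat.card_pos_iff.mp (by omega)).1
  have hidx3 := @index_stabilizer_of_transitive G (Fin 3 ↪ α) _ _ x h3
  rw [hemb] at hidx3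
  have hdvd : 990 ∣ Nat.card G := by
    rw [← hidx3]; exact Subgroup.index_dvd_card _
  rw [hcard] at hdvd
  revert hdvd
  decide

end Cfsg.Agent.Lib.Helper71.D11NO1320
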