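import Mathlib
import Cfsg.Agent.Lib.Helper75.DCStmt

/-!
# S4719, piece BF: the Brauer–Fowler counting argument

If the involution `z` has `|C(z)| ≤ n` and `2 n ≤ |H|`, then some `g ≠ 1` has
`|H| ≤ 2 n² |C(g)|`: count the pairs `(a, b)` by the product `a z a⁻¹ · b z b⁻¹`.
-/

set_option autoImplicit false
set_option linter.style.haveILetI false

namespace Cfsg.Agent.Lib.Helper71.DCBF

open Cfsg

universe u

/-- the elements conjugating `z` to `x` are at most `|C(z)|` many -/
theorem conj_fiber_le {H : Type u} [Group H] [Fintype H] [DecidableEq H] (z x : H) :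
    (Finset.univ.filter (fun a : H => a * z * a⁻¹ = x)).card ≤
      Nat.card (Subgroup.centralizer ({z} : Set H)) := by
  classical
  rcases (Finset.univ.filter (fun a : H => a * z * a⁻¹ = x)).eq_empty_or_nonempty with h | ⟨a₀, ha₀⟩
  · rw [h]
    simp
  · rw [Finset.mem_filter] at ha₀
    have h1 : Nat.card (Subgroup.centralizer ({z} : Set H)) =
        (Finset.univ.filter (fun a : H => a ∈ Subgroup.centralizer ({z} : Set H))).card := by
      rw [Nat.card_eq_fintype_card, Fintype.card_subtype]
    rw [h1]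
    apply Finset.card_le_card_of_injOn (fun a => a₀⁻¹ * a)
    · intro a ha
      rw [Finset.mem_coe, Finset.mem_filter] at ha ⊢
      refine ⟨Finset.mem_univ _, ?_⟩
      rw [Subgroup.mem_centralizer_iff]
      intro h hh
      rw [Set.mem_singleton_iff] at hh
      subst hh
      have h2 : a * h * a⁻¹ = a₀ * h * a₀⁻¹ := ha.2.trans ha₀.2.symm
      calc h * (a₀⁻¹ * a) = a₀⁻¹ * (a₀ * h * a₀⁻¹) * a := by group
        _ = a₀⁻¹ * (a * h * a⁻¹) * a := by rw [h2]
        _ = a₀⁻¹ * a * h := by group
    · intro a _ b _ hab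
      exact mul_left_cancel hab

/-- Brauer–Fowler in a finite group -/
theorem bf0 {H : Type u} [Group H] [Finite H] (z : H) (n : ℕ) (hz2 : z * z = 1)
    (hc : Nat.card (Subgroup.centralizer ({z} : Set H)) ≤ n) (hn : 2 * n ≤ Nat.card H) :
    ∃ g : H, g ≠ 1 ∧
      Nat.card H ≤ 2 * n ^ 2 * Nat.card (Subgroup.centralizer ({g} : Set H)) := by
  classical
  letI : Fintype H := Fintype.ofFinite H
  by_contra hcon
  have hcon' : ∀ g : H, g ≠ 1 →
      2 * n ^ 2 * Nat.card (Subgroup.centralizer ({g} : Set H)) < Nat.card H := by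
    intro g hg
    by_contra h
    exact hcon ⟨g, hg, not_lt.mp h⟩
  have hzinv : z⁻¹ = z := inv_eq_of_mul_eq_one_left hz2
  have hsq : ∀ a : H, (a * z * a⁻¹) * (a * z * a⁻¹) = 1 := by
    intro a
    calc (a * z * a⁻¹) * (a * z * a⁻¹) = a * (z * z) * a⁻¹ := by group
      _ = 1 := by rw [hz2]; group
  have hinv : ∀ a : H, (a * z * a⁻¹)⁻¹ = a * z * a⁻¹ := fun a =>
    inv_eq_of_mul_eq_one_left (hsq a)
  have hNcard : (Finset.univ : Finset H).card = Nat.card H := by
    rw [Finset.card_univ, Nat.card_eq_fintype_card]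
  have hNpos : 0 < Nat.card H := Nat.card_pos
  -- the fibres of the product map
  have htot : Nat.card H * Nat.card H = ∑ g : H,
      (Finset.univ.filter
        (fun p : H × H => p.1 * z * p.1⁻¹ * (p.2 * z * p.2⁻¹) = g)).card := by
    have h1 := Finset.card_eq_sum_card_fiberwise
      (f := fun p : H × H => p.1 * z * p.1⁻¹ * (p.2 * z * p.2⁻¹))
      (s := (Finset.univ : Finset (H × H))) (t := (Finset.univ : Finset H))
      (fun p _ => Finset.mem_coe.mpr (Finset.mem_univ _))
    rw [Finset.card_univ, Fintype.card_prod, ← Nat.card_eq_fintype_card] at h1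
    exact h1
  have hP1 : (Finset.univ.filter
      (fun p : H × H => p.1 * z * p.1⁻¹ * (p.2 * z * p.2⁻¹) = 1)).card ≤
      Nat.card (Subgroup.centralizer ({z} : Set H)) * Nat.card H := by
    refine (Finset.card_le_mul_card_image (f := Prod.fst) _
      (Nat.card (Subgroup.centralizer ({z} : Set H))) ?_).trans ?_
    · intro a _
      refine le_trans ?_ (conj_fiber_le z (a * z * a⁻¹))
      apply Finset.card_le_card_of_injOn Prod.snd
      · intro p hp
        rw [Finset.mem_coe, Finset.mem_filter, Finset.mem_filter] at hp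
        rw [Finset.mem_coe, Finset.mem_filter]
        refine ⟨Finset.mem_univ _, ?_⟩
        obtain ⟨⟨-, hp1⟩, hp2⟩ := hp
        rw [hp2] at hp1
        have h2 : p.2 * z * p.2⁻¹ = (a * z * a⁻¹)⁻¹ := (inv_eq_of_mul_eq_one_right hp1).symm
        rw [h2, hinv]
      · intro p hp q hq hpq
        rw [Finset.mem_coe, Finset.mem_filter] at hp hq
        exact Prod.ext (hp.2.trans hq.2.symm) hpq
    · apply Nat.mul_le_mul_left
      rw [← hNcard]
      exact Finset.card_le_card (Finset.subset_univ _)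
  have hPg : ∀ g : H, (Finset.univ.filter
      (fun p : H × H => p.1 * z * p.1⁻¹ * (p.2 * z * p.2⁻¹) = g)).card ≤
      Nat.card (Subgroup.centralizer ({z} : Set H)) *
        Nat.card (Subgroup.centralizer ({z} : Set H)) *
        Nat.card (Subgroup.centralizer ({g} : Set H)) := by
    intro g
    refine (Finset.card_le_mul_card_image (f := fun p : H × H => p.1 * z * p.1⁻¹) _
      (Nat.card (Subgroup.centralizer ({z} : Set H)) *
        Nat.card (Subgroup.centralizer ({z} : Set H))) ?_).trans ?_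
    · intro x _
      have hsub : (Finset.univ.filter
          (fun p : H × H => p.1 * z * p.1⁻¹ * (p.2 * z * p.2⁻¹) = g)).filter
            (fun p : H × H => p.1 * z * p.1⁻¹ = x) ⊆
          (Finset.univ.filter (fun a : H => a * z * a⁻¹ = x)) ×ˢ
            (Finset.univ.filter (fun b : H => b * z * b⁻¹ = x⁻¹ * g)) := by
        intro p hp
        rw [Finset.mem_filter, Finset.mem_filter] at hp
        obtain ⟨⟨-, hp1⟩, hp2⟩ := hp
        rw [Finset.mem_product, Finset.mem_filter, Finset.mem_filter]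
        refine ⟨⟨Finset.mem_univ _, hp2⟩, Finset.mem_univ _, ?_⟩
        rw [← hp1, hp2]
        group
      refine (Finset.card_le_card hsub).trans ?_
      rw [Finset.card_product]
      exact Nat.mul_le_mul (conj_fiber_le z x) (conj_fiber_le z (x⁻¹ * g))
    · apply Nat.mul_le_mul_left
      refine le_trans ?_ (conj_fiber_le g g⁻¹)
      apply Finset.card_le_card
      intro x hx
      rw [Finset.mem_image] at hx
      obtain ⟨p, hp, rfl⟩ := hx
      rw [Finset.mem_filter] at hp
      rw [Finset.mem_filter]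
      refine ⟨Finset.mem_univ _, ?_⟩
      have h1 := hp.2
      rw [← h1]
      have h2 : p.1 * z * p.1⁻¹ * (p.1 * z * p.1⁻¹ * (p.2 * z * p.2⁻¹)) * (p.1 * z * p.1⁻¹)⁻¹
          = (p.1 * z * p.1⁻¹ * (p.1 * z * p.1⁻¹)) * (p.2 * z * p.2⁻¹) * (p.1 * z * p.1⁻¹)⁻¹ := by
        group
      rw [h2, hsq, one_mul, hinv p.1, mul_inv_rev, hinv, hinv]
  -- the arithmetic
  have hsplit := Finset.add_sum_erase (Finset.univ : Finset H)
    (fun g : H => (Finset.univ.filter
      (fun p : H × H => p.1 * z * p.1⁻¹ * (p.2 * z * p.2⁻¹) = g)).card) (Finset.mem_univ (1 : H))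
  have herase : ((Finset.univ : Finset H).erase 1).card = Nat.card H - 1 := by
    rw [Finset.card_erase_of_mem (Finset.mem_univ _), hNcard]
  have hS : ∑ g ∈ (Finset.univ : Finset H).erase 1, 2 * (Finset.univ.filter
      (fun p : H × H => p.1 * z * p.1⁻¹ * (p.2 * z * p.2⁻¹) = g)).card ≤
      (Nat.card H - 1) * (Nat.card H - 1) := by
    rw [← herase, ← smul_eq_mul]
    apply Finset.sum_le_card_nsmul
    intro g hg
    have hg1 : g ≠ 1 := Finset.ne_of_mem_erase hg
    have h1 := hcon' g hg1
    have h2 := hPg g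
    have h3 : Nat.card (Subgroup.centralizer ({z} : Set H)) *
        Nat.card (Subgroup.centralizer ({z} : Set H)) *
        Nat.card (Subgroup.centralizer ({g} : Set H)) ≤
        n * n * Nat.card (Subgroup.centralizer ({g} : Set H)) :=
      Nat.mul_le_mul_right _ (Nat.mul_le_mul hc hc)
    rw [herase]
    have h4 : 2 * n ^ 2 * Nat.card (Subgroup.centralizer ({g} : Set H))
        = 2 * (n * n * Nat.card (Subgroup.centralizer ({g} : Set H))) := by ring
    omega
  rw [← Finset.mul_sum] at hS
  beta_reduce at hsplit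
  rw [← htot] at hsplit
  obtain ⟨K, hK⟩ : ∃ K, Nat.card H = K + 1 := ⟨Nat.card H - 1, by omega⟩
  have h5 : Nat.card (Subgroup.centralizer ({z} : Set H)) * Nat.card H ≤ n * Nat.card H :=
    Nat.mul_le_mul_right _ hc
  have h6 : 2 * n * Nat.card H ≤ Nat.card H * Nat.card H := Nat.mul_le_mul_right _ hn
  rw [hK] at hS h5 h6 hP1 hsplit
  have h7 : K + 1 - 1 = K := by omega
  rw [h7] at hS
  nlinarith

/-- centralizers in a subgroup -/
theorem cent_card {Γ : Type u} [Group Γ] (G : Subgroup Γ) (g : G) :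
    Nat.card (Subgroup.centralizer ({g} : Set ↥G)) =
      Nat.card ↥(G ⊓ Subgroup.centralizer ({(g : Γ)} : Set Γ)) := by
  have h1 : Subgroup.centralizer ({g} : Set ↥G) =
      (G ⊓ Subgroup.centralizer ({(g : Γ)} : Set Γ)).subgroupOf G := by
    ext a
    rw [Subgroup.mem_subgroupOf, Subgroup.mem_inf, Subgroup.mem_centralizer_iff,
      Subgroup.mem_centralizer_iff]
    constructor
    · intro h
      refine ⟨a.2, ?_⟩
      intro k hk
      rw [Set.mem_singleton_iff] at hk
      rw [hk]
      exact congrArg Subtype.val (h g (Set.mem_singleton g))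
    · rintro ⟨-, h⟩ k hk
      rw [Set.mem_singleton_iff] at hk
      rw [hk]
      exact Subtype.ext (h (g : Γ) (Set.mem_singleton _))
  rw [h1]
  exact Nat.card_congr (Subgroup.subgroupOfEquivOfLe inf_le_left).toEquiv

theorem main : Cfsg.Agent.Lib.Helper75.DCStmt.BF.{u} := by
  intro Γ _ _ G z n hzG hz1 hz2 hc hn
  have hc' : Nat.card (Subgroup.centralizer ({(⟨z, hzG⟩ : G)} : Set ↥G)) ≤ n := by
    rw [cent_card]
    exact hc
  obtain ⟨g, hg1, hg⟩ := bf0 (⟨z, hzG⟩ : G) n (Subtype.ext hz2) hc' hn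
  refine ⟨g, g.2, fun h => hg1 (Subtype.ext h), ?_⟩
  rw [← cent_card]
  exact hg

end Cfsg.Agent.Lib.Helper71.DCBF
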