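import Mathlib
import Cfsg.Agent.Lib.Helper75.DCStmt

/-!
# S4719, piece NC: the centralizer of the normal closure of an element with few conjugates

If `Γ = G · ⟨v, w⟩` and `g ∈ G` has at most `m` conjugates under `G`, then `g` has at most `4 m`
conjugates under `Γ`; `G` permutes them, and two elements of `G` inducing the same permutation
differ by an element of `C_G(⟨g ^ Γ⟩)`.
-/

set_option autoImplicit false
set_option linter.style.haveILetI false

namespace Cfsg.Agent.Lib.Helper71.DCNC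

open Cfsg
open scoped Classical

universe u

theorem card_filter_mem {Γ : Type u} [Group Γ] [Fintype Γ] (S : Subgroup Γ) :
    (Finset.univ.filter (fun x : Γ => x ∈ S)).card = Nat.card S := by
  rw [Nat.card_eq_fintype_card, Fintype.card_subtype]

/-- the `G`-conjugates of `h` -/
noncomputable def KU {Γ : Type u} [Group Γ] [Fintype Γ] (G : Subgroup Γ) (h : Γ) : Finset Γ :=
  (Finset.univ.filter (fun x : Γ => x ∈ G)).image (fun x => x * h * x⁻¹)

theorem ku_mul_le {Γ : Type u} [Group Γ] [Fintype Γ] (G : Subgroup Γ) (h : Γ) :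
    Nat.card ↥(G ⊓ Subgroup.centralizer ({h} : Set Γ)) * (KU G h).card ≤ Nat.card G := by
  rw [← card_filter_mem G]
  unfold KU
  apply Finset.mul_card_image_le_card
  intro b hb
  rw [Finset.mem_image] at hb
  obtain ⟨x₀, hx₀, rfl⟩ := hb
  rw [Finset.mem_filter] at hx₀
  rw [← card_filter_mem]
  apply Finset.card_le_card_of_injOn (fun c => x₀ * c)
  · intro c hc
    rw [Finset.mem_coe, Finset.mem_filter] at hc
    rw [Finset.mem_coe, Finset.mem_filter, Finset.mem_filter]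
    obtain ⟨-, hcG, hcC⟩ := hc
    refine ⟨⟨Finset.mem_univ _, G.mul_mem hx₀.2 hcG⟩, ?_⟩
    have h1 : h * c = c * h := (Subgroup.mem_centralizer_iff.mp hcC) _ (Set.mem_singleton _)
    calc x₀ * c * h * (x₀ * c)⁻¹ = x₀ * (c * h) * c⁻¹ * x₀⁻¹ := by group
      _ = x₀ * (h * c) * c⁻¹ * x₀⁻¹ := by rw [h1]
      _ = x₀ * h * x₀⁻¹ := by group
  · intro a _ b _ hab
    exact mul_left_cancel hab

theorem cent_conj_le {Γ : Type u} [Group Γ] [Finite Γ] (G : Subgroup Γ) (hGn : G.Normal)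
    (g u : Γ) :
    Nat.card ↥(G ⊓ Subgroup.centralizer ({g} : Set Γ)) ≤
      Nat.card ↥(G ⊓ Subgroup.centralizer ({u * g * u⁻¹} : Set Γ)) := by
  have hmem : ∀ c : ↥(G ⊓ Subgroup.centralizer ({g} : Set Γ)),
      u * (c : Γ) * u⁻¹ ∈ G ⊓ Subgroup.centralizer ({u * g * u⁻¹} : Set Γ) := by
    intro c
    refine Subgroup.mem_inf.mpr ⟨hGn.conj_mem _ c.2.1 u, ?_⟩
    rw [Subgroup.mem_centralizer_iff]
    intro h hh
    rw [Set.mem_singleton_iff] at hh
    rw [hh]
    have h1 : g * (c : Γ) = (c : Γ) * g :=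
      (Subgroup.mem_centralizer_iff.mp c.2.2) g (Set.mem_singleton g)
    calc u * g * u⁻¹ * (u * (c : Γ) * u⁻¹) = u * (g * (c : Γ)) * u⁻¹ := by group
      _ = u * ((c : Γ) * g) * u⁻¹ := by rw [h1]
      _ = u * (c : Γ) * u⁻¹ * (u * g * u⁻¹) := by group
  apply Nat.card_le_card_of_injective
    (fun c : ↥(G ⊓ Subgroup.centralizer ({g} : Set Γ)) =>
      (⟨u * (c : Γ) * u⁻¹, hmem c⟩ : ↥(G ⊓ Subgroup.centralizer ({u * g * u⁻¹} : Set Γ))))
  intro a b hab
  have h1 : u * (a : Γ) * u⁻¹ = u * (b : Γ) * u⁻¹ := congrArg Subtype.val hab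
  exact Subtype.ext (mul_left_cancel (mul_right_cancel h1))

theorem ku_le {Γ : Type u} [Group Γ] [Fintype Γ] (G : Subgroup Γ) (hGn : G.Normal) (g u : Γ)
    (m : ℕ) (hm : Nat.card G ≤ m * Nat.card ↥(G ⊓ Subgroup.centralizer ({g} : Set Γ))) :
    (KU G (u * g * u⁻¹)).card ≤ m := by
  have hA := ku_mul_le G (u * g * u⁻¹)
  have hB := cent_conj_le G hGn g u
  have hpos : 0 < Nat.card ↥(G ⊓ Subgroup.centralizer ({u * g * u⁻¹} : Set Γ)) := Nat.card_pos
  have h3 : Nat.card ↥(G ⊓ Subgroup.centralizer ({u * g * u⁻¹} : Set Γ)) *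
      (KU G (u * g * u⁻¹)).card ≤
      Nat.card ↥(G ⊓ Subgroup.centralizer ({u * g * u⁻¹} : Set Γ)) * m := by
    calc _ ≤ Nat.card G := hA
      _ ≤ m * Nat.card ↥(G ⊓ Subgroup.centralizer ({g} : Set Γ)) := hm
      _ ≤ m * Nat.card ↥(G ⊓ Subgroup.centralizer ({u * g * u⁻¹} : Set Γ)) :=
        Nat.mul_le_mul_left _ hB
      _ = _ := mul_comm _ _
  exact Nat.le_of_mul_le_mul_left h3 hpos

theorem main : Cfsg.Agent.Lib.Helper75.DCStmt.NC.{u} := by
  intro Γ _ _ G v w m hGn hGen g hg hm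
  letI : Fintype Γ := Fintype.ofFinite Γ
  -- the conjugates of `g`
  have hK : (Finset.univ.filter (fun k : Γ => ∃ γ : Γ, γ * g * γ⁻¹ = k)).card ≤ 4 * m := by
    have hsub : (Finset.univ.filter (fun k : Γ => ∃ γ : Γ, γ * g * γ⁻¹ = k)) ⊆
        KU G (1 * g * 1⁻¹) ∪ KU G (v * g * v⁻¹) ∪ KU G (w * g * w⁻¹) ∪
          KU G (v * w * g * (v * w)⁻¹) := by
      intro k hk
      rw [Finset.mem_filter] at hk
      obtain ⟨-, γ, rfl⟩ := hk
      obtain ⟨x, hx, u, hu, rfl⟩ := hGen γ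
      have hmem : x * u * g * (x * u)⁻¹ ∈ KU G (u * g * u⁻¹) := by
        unfold KU
        rw [Finset.mem_image]
        exact ⟨x, Finset.mem_filter.mpr ⟨Finset.mem_univ _, hx⟩, by group⟩
      simp only [Finset.mem_union]
      rcases hu with rfl | rfl | rfl | rfl
      · left; left; left; exact hmem
      · left; left; right; exact hmem
      · left; right; exact hmem
      · right; exact hmem
    have h1 := ku_le G hGn g 1 m hm
    have h2 := ku_le G hGn g v m hm
    have h3 := ku_le G hGn g w m hm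
    have h4 := ku_le G hGn g (v * w) m hm
    calc _ ≤ (KU G (1 * g * 1⁻¹) ∪ KU G (v * g * v⁻¹) ∪ KU G (w * g * w⁻¹) ∪
          KU G (v * w * g * (v * w)⁻¹)).card := Finset.card_le_card hsub
      _ ≤ (KU G (1 * g * 1⁻¹)).card + (KU G (v * g * v⁻¹)).card + (KU G (w * g * w⁻¹)).card +
          (KU G (v * w * g * (v * w)⁻¹)).card := by
        refine (Finset.card_union_le _ _).trans ?_
        refine Nat.add_le_add_right ((Finset.card_union_le _ _).trans ?_) _
        exact Nat.add_le_add_right (Finset.card_union_le _ _) _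
      _ ≤ 4 * m := by omega
  have hKconj : ∀ (x a : Γ), a ∈ (Finset.univ.filter (fun k : Γ => ∃ γ : Γ, γ * g * γ⁻¹ = k)) ↔
      (MulAut.conj x).toEquiv a ∈ (Finset.univ.filter (fun k : Γ => ∃ γ : Γ, γ * g * γ⁻¹ = k)) := by
    intro x a
    simp only [Finset.mem_filter, Finset.mem_univ, true_and]
    constructor
    · rintro ⟨γ, rfl⟩
      refine ⟨x * γ, ?_⟩
      show x * γ * g * (x * γ)⁻¹ = x * (γ * g * γ⁻¹) * x⁻¹
      group
    · rintro ⟨γ, hγ⟩
      refine ⟨x⁻¹ * γ, ?_⟩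
      have h1 : γ * g * γ⁻¹ = x * a * x⁻¹ := hγ
      calc x⁻¹ * γ * g * (x⁻¹ * γ)⁻¹ = x⁻¹ * (γ * g * γ⁻¹) * x := by group
        _ = x⁻¹ * (x * a * x⁻¹) * x := by rw [h1]
        _ = a := by group
  -- the permutation induced by `x`
  have hfib : ∀ τ ∈ (Finset.univ.filter (fun x : Γ => x ∈ G)).image
        (fun x : Γ => (MulAut.conj x).toEquiv.subtypeEquiv (hKconj x)),
      ((Finset.univ.filter (fun x : Γ => x ∈ G)).filter
        (fun a : Γ => (MulAut.conj a).toEquiv.subtypeEquiv (hKconj a) = τ)).card ≤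
      Nat.card ↥(G ⊓ Subgroup.centralizer
        ((Subgroup.normalClosure ({g} : Set Γ) : Subgroup Γ) : Set Γ)) := by
    intro τ hτ
    rw [Finset.mem_image] at hτ
    obtain ⟨a₀, ha₀, rfl⟩ := hτ
    rw [Finset.mem_filter] at ha₀
    rw [← card_filter_mem]
    apply Finset.card_le_card_of_injOn (fun a => a₀⁻¹ * a)
    · intro a ha
      rw [Finset.mem_coe, Finset.mem_filter, Finset.mem_filter] at ha
      obtain ⟨⟨-, haG⟩, haσ⟩ := ha
      rw [Finset.mem_coe, Finset.mem_filter]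
      have hk : ∀ k : Γ, (∃ γ : Γ, γ * g * γ⁻¹ = k) → a * k * a⁻¹ = a₀ * k * a₀⁻¹ := by
        intro k hk
        have hkK : k ∈ (Finset.univ.filter (fun k : Γ => ∃ γ : Γ, γ * g * γ⁻¹ = k)) :=
          Finset.mem_filter.mpr ⟨Finset.mem_univ _, hk⟩
        have h1 := congrArg (fun τ : Equiv.Perm
          {k // k ∈ (Finset.univ.filter (fun k : Γ => ∃ γ : Γ, γ * g * γ⁻¹ = k))} =>
            ((τ ⟨k, hkK⟩ :
              {k // k ∈ (Finset.univ.filter (fun k : Γ => ∃ γ : Γ, γ * g * γ⁻¹ = k))}) : Γ)) haσ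
        exact h1
      have hle : Subgroup.normalClosure ({g} : Set Γ) ≤
          Subgroup.centralizer ({a₀⁻¹ * a} : Set Γ) := by
        show Subgroup.closure (Group.conjugatesOfSet ({g} : Set Γ)) ≤ _
        rw [Subgroup.closure_le]
        intro s hs
        rw [Group.mem_conjugatesOfSet_iff] at hs
        obtain ⟨g', hg', hs⟩ := hs
        rw [Set.mem_singleton_iff] at hg'
        rw [hg', isConj_iff] at hs
        obtain ⟨γ, rfl⟩ := hs
        have h1 := hk _ ⟨γ, rfl⟩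
        rw [SetLike.mem_coe, Subgroup.mem_centralizer_iff]
        intro e he
        rw [Set.mem_singleton_iff] at he
        rw [he]
        calc a₀⁻¹ * a * (γ * g * γ⁻¹) = a₀⁻¹ * (a * (γ * g * γ⁻¹) * a⁻¹) * a := by group
          _ = a₀⁻¹ * (a₀ * (γ * g * γ⁻¹) * a₀⁻¹) * a := by rw [h1]
          _ = γ * g * γ⁻¹ * (a₀⁻¹ * a) := by group
      refine ⟨Finset.mem_univ _, Subgroup.mem_inf.mpr ⟨G.mul_mem (G.inv_mem ha₀.2) haG, ?_⟩⟩
      rw [Subgroup.mem_centralizer_iff]
      intro h hh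
      have h2 := hle hh
      rw [Subgroup.mem_centralizer_iff] at h2
      exact (h2 _ (Set.mem_singleton _)).symm
    · intro a _ b _ hab
      exact mul_left_cancel hab
  have h1 := Finset.card_le_mul_card_image _ _ hfib
  have h2 : ((Finset.univ.filter (fun x : Γ => x ∈ G)).image
        (fun x : Γ => (MulAut.conj x).toEquiv.subtypeEquiv (hKconj x))).card ≤
      ((Finset.univ.filter (fun k : Γ => ∃ γ : Γ, γ * g * γ⁻¹ = k)).card).factorial := by
    calc _ ≤ (Finset.univ : Finset (Equiv.Perm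
          {k // k ∈ (Finset.univ.filter (fun k : Γ => ∃ γ : Γ, γ * g * γ⁻¹ = k))})).card :=
        Finset.card_le_card (Finset.subset_univ _)
      _ = _ := by rw [Finset.card_univ, Fintype.card_perm, Fintype.card_coe]
  have h3 := Nat.factorial_le hK
  rw [card_filter_mem G] at h1
  calc Nat.card G ≤ _ := h1
    _ ≤ Nat.card ↥(G ⊓ Subgroup.centralizer
        ((Subgroup.normalClosure ({g} : Set Γ) : Subgroup Γ) : Set Γ)) * (4 * m).factorial :=
      Nat.mul_le_mul_left _ (h2.trans h3)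
    _ = _ := mul_comm _ _

end Cfsg.Agent.Lib.Helper71.DCNC
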