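import Mathlib
import Cfsg.Agent.Lib.Helper75.DCStmt

/-!
# S4719, piece YN: `|C_G(Y)|_2 < |G|_2` for a nontrivial normal `Y ≤ G`

`Z(Y)` is abelian and normal; its elements of order at most 2 form a normal 2-subgroup, which is
trivial, so `Z(Y)` has odd order, so it is trivial; `|Y|` is even and `Y ∩ C_G(Y) = 1`, so
`|Y| · |C_G(Y)|` divides `|G|`.
-/

set_option autoImplicit false
set_option linter.style.haveILetI false

namespace Cfsg.Agent.Lib.Helper71.DCYN

open Cfsg

universe u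

theorem main : Cfsg.Agent.Lib.Helper75.DCStmt.YN.{u} := by
  intro Γ _ _ G hGn hNoOdd hNoTwo Y hYn hYG hY
  classical
  haveI := hYn
  have hZn : (Y ⊓ Subgroup.centralizer (Y : Set Γ)).Normal :=
    Subgroup.normal_inf_normal Y (Subgroup.centralizer (Y : Set Γ))
  have hZG : Y ⊓ Subgroup.centralizer (Y : Set Γ) ≤ G := inf_le_left.trans hYG
  have hZcomm : ∀ a ∈ Y ⊓ Subgroup.centralizer (Y : Set Γ),
      ∀ b ∈ Y ⊓ Subgroup.centralizer (Y : Set Γ), a * b = b * a := by
    intro a ha b hb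
    exact ((Subgroup.mem_centralizer_iff.mp ha.2) b hb.1).symm
  -- the elements of order at most 2 of the centre of `Y`
  let T : Subgroup Γ :=
    { carrier := {t | t ∈ Y ⊓ Subgroup.centralizer (Y : Set Γ) ∧ t * t = 1}
      mul_mem' := by
        rintro a b ⟨ha, ha2⟩ ⟨hb, hb2⟩
        refine ⟨Subgroup.mul_mem _ ha hb, ?_⟩
        calc a * b * (a * b) = a * (b * a) * b := by group
          _ = a * (a * b) * b := by rw [hZcomm b hb a ha]
          _ = (a * a) * (b * b) := by group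
          _ = 1 := by rw [ha2, hb2, one_mul]
      one_mem' := ⟨Subgroup.one_mem _, one_mul 1⟩
      inv_mem' := by
        rintro a ⟨ha, ha2⟩
        refine ⟨Subgroup.inv_mem _ ha, ?_⟩
        rw [← mul_inv_rev, ha2, inv_one] }
  have hTn : T.Normal := by
    constructor
    rintro t ⟨ht, ht2⟩ n
    refine ⟨hZn.conj_mem t ht n, ?_⟩
    calc n * t * n⁻¹ * (n * t * n⁻¹) = n * (t * t) * n⁻¹ := by group
      _ = 1 := by rw [ht2]; group
  have hTG : T ≤ G := fun t ht => hZG ht.1
  have hT2 : IsPGroup 2 T := by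
    intro t
    refine ⟨1, ?_⟩
    apply Subtype.ext
    rw [pow_one, pow_two]
    exact t.2.2
  have hTbot : T = ⊥ := hNoTwo T hTn hTG hT2
  have hZodd : Odd (Nat.card ↥(Y ⊓ Subgroup.centralizer (Y : Set Γ))) := by
    rw [← Nat.not_even_iff_odd]
    intro heven
    haveI : Fact (Nat.Prime 2) := ⟨Nat.prime_two⟩
    obtain ⟨x, hx⟩ := exists_prime_orderOf_dvd_card' 2 (even_iff_two_dvd.mp heven)
    have hxT : (x : Γ) ∈ T := by
      refine ⟨x.2, ?_⟩
      have h1 : x ^ 2 = 1 := by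
        rw [← hx]
        exact pow_orderOf_eq_one x
      have h2 := congrArg Subtype.val h1
      rw [pow_two] at h2
      exact h2
    rw [hTbot, Subgroup.mem_bot] at hxT
    have hx1 : x = 1 := Subtype.ext hxT
    rw [hx1, orderOf_one] at hx
    norm_num at hx
  have hZbot : Y ⊓ Subgroup.centralizer (Y : Set Γ) = ⊥ := hNoOdd _ hZn hZG hZodd
  have hYeven : Even (Nat.card Y) := by
    rw [← Nat.not_odd_iff_even]
    intro hodd
    exact hY (hNoOdd Y hYn hYG hodd)
  -- indices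
  have hCG : G ⊓ Subgroup.centralizer (Y : Set Γ) ≤ G := inf_le_left
  have hYC : Y ⊓ (G ⊓ Subgroup.centralizer (Y : Set Γ)) = ⊥ := by
    rw [eq_bot_iff, ← hZbot]
    intro a ha
    exact ⟨ha.1, ha.2.2⟩
  have h1 : Nat.card Y * Y.relIndex G = Nat.card G := by
    have h := Subgroup.relIndex_mul_relIndex ⊥ Y G bot_le hYG
    rwa [Subgroup.relIndex_bot_left, Subgroup.relIndex_bot_left] at h
  have h2 : Y.relIndex (G ⊓ Subgroup.centralizer (Y : Set Γ)) =
      Nat.card ↥(G ⊓ Subgroup.centralizer (Y : Set Γ)) := by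
    rw [← Subgroup.inf_relIndex_right, hYC, Subgroup.relIndex_bot_left]
  have h3 : Y.relIndex (G ⊓ Subgroup.centralizer (Y : Set Γ)) ∣ Y.relIndex G := by
    have h := Subgroup.relIndex_dvd_index_of_normal (Y.subgroupOf G)
      ((G ⊓ Subgroup.centralizer (Y : Set Γ)).subgroupOf G)
    rwa [Subgroup.relIndex_subgroupOf hCG] at h
  rw [h2] at h3
  obtain ⟨k, hk⟩ := h3
  have hG : Nat.card G = Nat.card Y * Nat.card ↥(G ⊓ Subgroup.centralizer (Y : Set Γ)) * k := by
    rw [← h1, hk, mul_assoc]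
  have hGpos : 0 < Nat.card G := Nat.card_pos
  have hYpos : Nat.card Y ≠ 0 := Nat.card_pos.ne'
  have hCpos : Nat.card ↥(G ⊓ Subgroup.centralizer (Y : Set Γ)) ≠ 0 := Nat.card_pos.ne'
  have hkpos : k ≠ 0 := by
    rintro rfl
    rw [mul_zero] at hG
    omega
  have hY2 : 1 ≤ (Nat.card Y).factorization 2 :=
    Nat.Prime.factorization_pos_of_dvd Nat.prime_two hYpos (even_iff_two_dvd.mp hYeven)
  rw [hG, Nat.factorization_mul (mul_ne_zero hYpos hCpos) hkpos,
    Nat.factorization_mul hYpos hCpos]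
  simp only [Finsupp.coe_add, Pi.add_apply]
  omega

end Cfsg.Agent.Lib.Helper71.DCYN
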