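import Mathlib
import Cfsg.Prelude.Def_Solvable

/-!
Constructing Frobenius complements (in the sense of `Cfsg.IsFrobeniusComplement`):
* `isFrobeniusComplement_map` : invariance under group isomorphisms;
* `exists_type_zero` : a Frobenius complement in a finite group of any universe gives one in a
  finite group living in `Type`;
* `exists_of_fpf` : if `H` acts fixed-point-freely by automorphisms on a nontrivial finite group
  `N`, then `H` is a Frobenius complement in the semidirect product (transported to `Type`);
* `exists_of_fpf_add` : the same for a `DistribMulAction` on an additive group.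
-/

set_option autoImplicit false

namespace Cfsg.Agent.Lib.Helper71.FrobConstr

open scoped Pointwise

/-- Frobenius complements are preserved by group isomorphisms. -/
theorem isFrobeniusComplement_map {G G' : Type*} [Group G] [Group G'] (e : G ≃* G')
    {H : Subgroup G} (hH : Cfsg.IsFrobeniusComplement H) :
    Cfsg.IsFrobeniusComplement (H.map e.toMonoidHom) := by
  refine ⟨?_, ?_, ?_⟩
  · intro h
    exact hH.1 ((Subgroup.map_eq_bot_iff_of_injective H e.injective).1 h)
  · intro h
    apply hH.2.1
    have := congrArg (Subgroup.comap e.toMonoidHom) h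
    rwa [Subgroup.comap_map_eq_self_of_injective e.injective, Subgroup.comap_top] at this
  · intro g hg
    rw [eq_bot_iff]
    intro x hx
    obtain ⟨hx1, hx2⟩ := Subgroup.mem_inf.1 hx
    obtain ⟨y, hy, rfl⟩ := hx1
    obtain ⟨g', rfl⟩ := e.surjective g
    have hg' : g' ∉ H := fun h => hg (Subgroup.mem_map_of_mem _ h)
    rw [Subgroup.mem_pointwise_smul_iff_inv_smul_mem, MulAut.smul_def, MulAut.conj_inv_apply]
      at hx2
    obtain ⟨z, hz, hze⟩ := hx2
    have hz' : z = g'⁻¹ * y * g' := by
      apply e.injective
      have : e z = (e g')⁻¹ * e y * e g' := hze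
      rw [this, map_mul, map_mul, map_inv]
    have hy' : y ∈ H ⊓ MulAut.conj g' • H := by
      refine Subgroup.mem_inf.2 ⟨hy, ?_⟩
      rw [Subgroup.mem_pointwise_smul_iff_inv_smul_mem, MulAut.smul_def, MulAut.conj_inv_apply,
        ← hz']
      exact hz
    rw [hH.2.2 g' hg', Subgroup.mem_bot] at hy'
    rw [Subgroup.mem_bot, hy']
    exact map_one _

/-- A Frobenius complement in a finite group gives one in a finite group in `Type`. -/
theorem exists_type_zero {G : Type*} [Group G] [Finite G] (H : Subgroup G)
    (hH : Cfsg.IsFrobeniusComplement H) :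
    ∃ (L : Type) (_ : Group L) (_ : Finite L) (C : Subgroup L),
      Cfsg.IsFrobeniusComplement C ∧ Nonempty (H ≃* C) := by
  classical
  let e : G ≃ {i : ℕ // i < Nat.card G} := (Finite.equivFin G).trans Fin.equivSubtype
  let _ : Group {i : ℕ // i < Nat.card G} := e.symm.group
  let f : G ≃* {i : ℕ // i < Nat.card G} := e.symm.mulEquiv.symm
  have hfin : Finite {i : ℕ // i < Nat.card G} := Finite.of_equiv _ e
  exact ⟨{i : ℕ // i < Nat.card G}, inferInstance, hfin, H.map f.toMonoidHom,
    isFrobeniusComplement_map f hH, ⟨H.equivMapOfInjective f.toMonoidHom f.injective⟩⟩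

/-- A finite group acting fixed-point-freely on a nontrivial finite group is a Frobenius
complement (in the semidirect product). -/
theorem exists_of_fpf {H N : Type*} [Group H] [Group N] [Finite H] [Finite N] [Nontrivial H]
    [Nontrivial N] (φ : H →* MulAut N) (hfpf : ∀ h : H, h ≠ 1 → ∀ n : N, φ h n = n → n = 1) :
    ∃ (L : Type) (_ : Group L) (_ : Finite L) (C : Subgroup L),
      Cfsg.IsFrobeniusComplement C ∧ Nonempty (H ≃* C) := by
  have hfin : Finite (N ⋊[φ] H) := Finite.of_equiv _ SemidirectProduct.equivProd.symm
  have hC : Cfsg.IsFrobeniusComplement (SemidirectProduct.inr : H →* N ⋊[φ] H).range := by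
    refine ⟨?_, ?_, ?_⟩
    · intro h
      obtain ⟨a, ha⟩ := exists_ne (1 : H)
      have hmem : (SemidirectProduct.inr a : N ⋊[φ] H) ∈ (⊥ : Subgroup (N ⋊[φ] H)) :=
        h ▸ ⟨a, rfl⟩
      rw [Subgroup.mem_bot] at hmem
      exact ha (SemidirectProduct.inr_injective (hmem.trans (map_one _).symm))
    · intro h
      obtain ⟨n, hn⟩ := exists_ne (1 : N)
      have hmem : (SemidirectProduct.inl n : N ⋊[φ] H) ∈
          (SemidirectProduct.inr : H →* N ⋊[φ] H).range := h ▸ Subgroup.mem_top _
      obtain ⟨a, ha⟩ := hmem
      have h2 := congrArg SemidirectProduct.left ha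
      rw [SemidirectProduct.left_inr, SemidirectProduct.left_inl] at h2
      exact hn h2.symm
    · intro g hg
      rw [eq_bot_iff]
      intro x hx
      obtain ⟨⟨a, rfl⟩, hx2⟩ := Subgroup.mem_inf.1 hx
      rw [Subgroup.mem_pointwise_smul_iff_inv_smul_mem, MulAut.smul_def, MulAut.conj_inv_apply]
        at hx2
      obtain ⟨b, hb⟩ := hx2
      have h1 : g * SemidirectProduct.inr b = SemidirectProduct.inr a * g := by
        rw [hb]; group
      have h2 := congrArg SemidirectProduct.left h1
      rw [SemidirectProduct.mul_left, SemidirectProduct.mul_left, SemidirectProduct.left_inr,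
        SemidirectProduct.left_inr, map_one, mul_one, one_mul, SemidirectProduct.right_inr] at h2
      have hgl : g.left ≠ 1 := by
        intro h
        apply hg
        refine ⟨g.right, ?_⟩
        ext
        · rw [SemidirectProduct.left_inr, h]
        · rw [SemidirectProduct.right_inr]
      have ha : a = 1 := by
        by_contra ha
        exact hgl (hfpf a ha g.left h2.symm)
      rw [Subgroup.mem_bot, ha, map_one]
  obtain ⟨L, i1, i2, C, hC', ⟨e⟩⟩ := exists_type_zero _ hC
  exact ⟨L, i1, i2, C, hC', ⟨(MonoidHom.ofInjective SemidirectProduct.inr_injective).trans e⟩⟩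

/-- Additive version: a finite group acting fixed-point-freely (by a distributive action) on a
nontrivial finite additive group is a Frobenius complement. -/
theorem exists_of_fpf_add {H M : Type*} [Group H] [Finite H] [Nontrivial H] [AddGroup M]
    [Finite M] [Nontrivial M] [DistribMulAction H M]
    (hfpf : ∀ h : H, h ≠ 1 → ∀ m : M, h • m = m → m = 0) :
    ∃ (L : Type) (_ : Group L) (_ : Finite L) (C : Subgroup L),
      Cfsg.IsFrobeniusComplement C ∧ Nonempty (H ≃* C) := by
  apply exists_of_fpf (N := Multiplicative M)
    ((MulAutMultiplicative M).symm.toMonoidHom.comp (DistribMulAction.toAddAut H M))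
  intro h hh n hn
  have h1 : h • Multiplicative.toAdd n = Multiplicative.toAdd n :=
    congrArg Multiplicative.toAdd hn
  have h2 := hfpf h hh _ h1
  exact Multiplicative.toAdd.injective h2

end Cfsg.Agent.Lib.Helper71.FrobConstr
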