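import Mathlib
import Cfsg.Prelude.Def_Solvable
import Cfsg.Agent.Lib.Helper71.Frobenius
import Cfsg.Agent.Lib.Helper71.FrobConstr

/-!
Constructing Frobenius groups with control of the size of the kernel.

* `isFrobeniusComplement_inr_range`: for a fixed-point-free action `φ : H →* MulAut N`, the copy
  of `H` in `N ⋊[φ] H` is a Frobenius complement;
* `index_inr_range`: its index is `Nat.card N`;
* `exists_type_zero_index`: transport of a Frobenius complement to a group in `Type`, keeping
  the index;
* `exists_of_fpf_card`: a Frobenius group in `Type` with complement `≃* H` and kernel of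
  `Nat.card N` elements.
-/

set_option autoImplicit false

namespace Cfsg.Agent.Lib.Helper71.FrobConstr2

open scoped Pointwise
open Cfsg.Agent.Lib.Helper71

theorem isFrobeniusComplement_inr_range {H N : Type*} [Group H] [Group N] [Nontrivial H]
    [Nontrivial N] (φ : H →* MulAut N) (hfpf : ∀ h : H, h ≠ 1 → ∀ n : N, φ h n = n → n = 1) :
    Cfsg.IsFrobeniusComplement (SemidirectProduct.inr : H →* N ⋊[φ] H).range := by
  refine ⟨?_, ?_, ?_⟩
  · intro h
    obtain ⟨a, ha⟩ := exists_ne (1 : H)
    have hmem : (SemidirectProduct.inr a : N ⋊[φ] H) ∈ (⊥ : Subgroup (N ⋊[φ] H)) :=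
      h ▸ ⟨a, rfl⟩
    rw [Subgroup.mem_bot] at hmem
    exact ha (SemidirectProduct.inr_injective (hmem.trans (map_one _).symm))
  · intro h
    obtain ⟨n, hn⟩ := exists_ne (1 : N)
    have hmem : (SemidirectProduct.inl n : N ⋊[φ] H) ∈
        (SemidirectProduct.inr : H →* N ⋊[φ] H).range := h ▸ Subgroup.mem_top _
    obtain ⟨a, ha⟩ := hmem
    have h2 := congrArg SemidirectProduct.left ha
    rw [SemidirectProduct.left_inr, SemidirectProduct.left_inl] at h2
    exact hn h2.symm
  · intro g hg
    rw [eq_bot_iff]
    intro x hx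
    obtain ⟨⟨a, rfl⟩, hx2⟩ := Subgroup.mem_inf.1 hx
    rw [Subgroup.mem_pointwise_smul_iff_inv_smul_mem, MulAut.smul_def, MulAut.conj_inv_apply]
      at hx2
    obtain ⟨b, hb⟩ := hx2
    have h1 : g * SemidirectProduct.inr b = SemidirectProduct.inr a * g := by
      rw [hb]; group
    have h2 := congrArg SemidirectProduct.left h1
    rw [SemidirectProduct.mul_left, SemidirectProduct.mul_left, SemidirectProduct.left_inr,
      SemidirectProduct.left_inr, map_one, mul_one, one_mul, SemidirectProduct.right_inr] at h2
    have hgl : g.left ≠ 1 := by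
      intro h
      apply hg
      refine ⟨g.right, ?_⟩
      ext
      · rw [SemidirectProduct.left_inr, h]
      · rw [SemidirectProduct.right_inr]
    have ha : a = 1 := by
      by_contra ha
      exact hgl (hfpf a ha g.left h2.symm)
    rw [Subgroup.mem_bot, ha, map_one]

theorem index_inr_range {H N : Type*} [Group H] [Group N] [Finite H] [Finite N]
    (φ : H →* MulAut N) :
    (SemidirectProduct.inr : H →* N ⋊[φ] H).range.index = Nat.card N := by
  have hfin : Finite (N ⋊[φ] H) := Finite.of_equiv _ SemidirectProduct.equivProd.symm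
  have h1 : Nat.card (N ⋊[φ] H) = Nat.card N * Nat.card H := by
    rw [Nat.card_congr SemidirectProduct.equivProd, Nat.card_prod]
  have h2 : Nat.card (SemidirectProduct.inr : H →* N ⋊[φ] H).range = Nat.card H :=
    (Nat.card_congr (MonoidHom.ofInjective SemidirectProduct.inr_injective).toEquiv).symm
  have h3 := (SemidirectProduct.inr : H →* N ⋊[φ] H).range.card_mul_index
  rw [h1, h2, mul_comm] at h3
  exact Nat.eq_of_mul_eq_mul_right Nat.card_pos h3

/-- A Frobenius complement in a finite group gives one in a finite group in `Type`, of the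
same index. -/
theorem exists_type_zero_index {G : Type*} [Group G] [Finite G] (H : Subgroup G)
    (hH : Cfsg.IsFrobeniusComplement H) :
    ∃ (L : Type) (_ : Group L) (_ : Finite L) (C : Subgroup L),
      Cfsg.IsFrobeniusComplement C ∧ Nonempty (H ≃* C) ∧ C.index = H.index := by
  classical
  let e : G ≃ {i : ℕ // i < Nat.card G} := (Finite.equivFin G).trans Fin.equivSubtype
  let _ : Group {i : ℕ // i < Nat.card G} := e.symm.group
  let f : G ≃* {i : ℕ // i < Nat.card G} := e.symm.mulEquiv.symm
  have hfin : Finite {i : ℕ // i < Nat.card G} := Finite.of_equiv _ e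
  exact ⟨{i : ℕ // i < Nat.card G}, inferInstance, hfin, H.map f.toMonoidHom,
    FrobConstr.isFrobeniusComplement_map f hH,
    ⟨H.equivMapOfInjective f.toMonoidHom f.injective⟩, Subgroup.index_map_equiv H f⟩

/-- A finite group acting fixed-point-freely on a nontrivial finite group `N` is a Frobenius
complement in a finite group (in `Type`) whose Frobenius kernel has `Nat.card N` elements. -/
theorem exists_of_fpf_card {H N : Type*} [Group H] [Group N] [Finite H] [Finite N] [Nontrivial H]
    [Nontrivial N] (φ : H →* MulAut N) (hfpf : ∀ h : H, h ≠ 1 → ∀ n : N, φ h n = n → n = 1) :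
    ∃ (L : Type) (_ : Group L) (_ : Finite L) (C : Subgroup L),
      Cfsg.IsFrobeniusComplement C ∧ Nonempty (H ≃* C) ∧
        Nat.card (Cfsg.frobeniusKernel C) = Nat.card N := by
  have hfin : Finite (N ⋊[φ] H) := Finite.of_equiv _ SemidirectProduct.equivProd.symm
  have hC := isFrobeniusComplement_inr_range φ hfpf
  obtain ⟨L, i1, i2, C, hC', ⟨e⟩, hidx⟩ := exists_type_zero_index _ hC
  refine ⟨L, i1, i2, C, hC', ⟨(MonoidHom.ofInjective SemidirectProduct.inr_injective).trans e⟩, ?_⟩
  rw [Frobenius.card_kernel C hC', hidx, index_inr_range]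

end Cfsg.Agent.Lib.Helper71.FrobConstr2
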