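import Mathlib
import Cfsg.Agent.Lib.Helper68.M11UStmt
import Cfsg.Agent.Lib.Helper68.M11Facts
import Cfsg.Agent.Lib.Helper17.Commuting
import Cfsg.Agent.Lib.Helper17.CentFix

/-!
# S0420 piece FIX2 (helper71, second seat): in the action of a simple group of order 7920 on the
11 cosets of a subgroup of index 11, an involution fixes at most three cosets.
-/

set_option autoImplicit false

namespace Cfsg.Agent.Lib.Helper71.MUFIX2

open Cfsg Cfsg.Agent.Lib.Helper68.M11UStmt Cfsg.Agent.Lib.Helper92.M11Stmt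

universe u

/-- The number of triples of distinct elements of `Fin 5`. -/
theorem card_T5 : (Finset.univ.filter (fun p : Fin 5 × Fin 5 × Fin 5 =>
    p.1 ≠ p.2.1 ∧ p.1 ≠ p.2.2 ∧ p.2.1 ≠ p.2.2)).card = 60 := by decide

/-- A set with at least five elements contains at least 60 triples of distinct elements. -/
theorem card_triples_ge {Ω : Type*} [Fintype Ω] [DecidableEq Ω] (F : Finset Ω)
    (hF : 5 ≤ F.card) :
    60 ≤ (Finset.univ.filter (fun p : Ω × Ω × Ω => (p.1 ≠ p.2.1 ∧ p.1 ≠ p.2.2 ∧ p.2.1 ≠ p.2.2) ∧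
      p.1 ∈ F ∧ p.2.1 ∈ F ∧ p.2.2 ∈ F)).card := by
  obtain ⟨F', hF'sub, hF'card⟩ := Finset.exists_subset_card_eq hF
  let e : Fin 5 → Ω := fun i => ((Finset.equivFinOfCardEq hF'card).symm i : Ω)
  have he_inj : Function.Injective e := fun i j h =>
    (Finset.equivFinOfCardEq hF'card).symm.injective (Subtype.ext h)
  have he_mem : ∀ i, e i ∈ F := fun i => hF'sub ((Finset.equivFinOfCardEq hF'card).symm i).2
  rw [← card_T5]
  apply Finset.card_le_card_of_injOn (fun p => (e p.1, e p.2.1, e p.2.2))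
  · intro p hp
    have hp' := (Finset.mem_filter.mp hp).2
    refine Finset.mem_coe.mpr (Finset.mem_filter.mpr ⟨Finset.mem_univ _, ⟨?_, ?_, ?_⟩,
      he_mem _, he_mem _, he_mem _⟩)
    · exact fun h => hp'.1 (he_inj h)
    · exact fun h => hp'.2.1 (he_inj h)
    · exact fun h => hp'.2.2 (he_inj h)
  · intro p _ q _ h
    simp only [Prod.mk.injEq] at h
    exact Prod.ext (he_inj h.1) (Prod.ext (he_inj h.2.1) (he_inj h.2.2))

/-- [FIX2] -/
theorem main : InvConj.{u} → Stab3.{u} → Fix2.{u} := by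
  intro hIC hS3 G _ _ _ hG M hM t ht
  classical
  haveI : Fintype G := Fintype.ofFinite G
  haveI : Fintype (G ⧸ M) := Fintype.ofFinite _
  haveI : Fact (Nat.Prime 2) := ⟨Nat.prime_two⟩
  have h11 : Nat.card (G ⧸ M) = 11 := hM
  -- parity
  have hpar : Nat.card (MulAction.fixedBy (G ⧸ M) t) % 2 = 1 := by
    have h := Cfsg.Agent.Lib.Helper17.Commuting.card_modEq_card_fixedBy (X := G ⧸ M) (p := 2)
      (n := 1) t (by rw [pow_one, ← ht, pow_orderOf_eq_one])
    rw [h11] at h
    unfold Nat.ModEq at h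
    omega
  by_contra hcon
  have h5 : 5 ≤ Nat.card (MulAction.fixedBy (G ⧸ M) t) := by omega
  -- all involutions have at least 5 fixed points
  have hall : ∀ s : G, orderOf s = 2 → 5 ≤ Nat.card (MulAction.fixedBy (G ⧸ M) s) := by
    intro s hs
    obtain ⟨g, hg⟩ := isConj_iff.mp (hIC G hG s t hs ht)
    have h1 := Cfsg.Agent.Lib.Helper17.CentFix.card_fixedBy_conj (X := G ⧸ M) g t
    have hs' : g⁻¹ * t * g = s := by rw [← hg]; group
    rw [hs'] at h1
    rw [h1]
    exact h5
  set I : Finset G := Finset.univ.filter (fun s => orderOf s = 2) with hI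
  have hIcard : I.card = 165 := by
    have h := Cfsg.Agent.Lib.Helper68.M11Facts.card_inv hG
    rw [Nat.card_eq_fintype_card, Fintype.card_subtype] at h
    rw [← h]
  set r : G → (G ⧸ M) × (G ⧸ M) × (G ⧸ M) → Prop :=
    fun s p => s • p.1 = p.1 ∧ s • p.2.1 = p.2.1 ∧ s • p.2.2 = p.2.2 with hr
  set Tr : Finset ((G ⧸ M) × (G ⧸ M) × (G ⧸ M)) :=
    Finset.univ.filter (fun p => p.1 ≠ p.2.1 ∧ p.1 ≠ p.2.2 ∧ p.2.1 ≠ p.2.2) with hTr
  have hdc := Finset.sum_card_bipartiteAbove_eq_sum_card_bipartiteBelow (s := I) (t := Tr) r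
  -- the left side
  have hL : 165 * 60 ≤ ∑ s ∈ I, (Tr.bipartiteAbove r s).card := by
    rw [← hIcard, ← smul_eq_mul, ← Finset.sum_const]
    apply Finset.sum_le_sum
    intro s hs
    have hs2 : orderOf s = 2 := (Finset.mem_filter.mp hs).2
    set F : Finset (G ⧸ M) := Finset.univ.filter (fun x => s • x = x) with hF
    have hFcard : 5 ≤ F.card := by
      have h := hall s hs2
      have hset : MulAction.fixedBy (G ⧸ M) s = (F : Set (G ⧸ M)) := by
        ext x
        simp [hF, MulAction.mem_fixedBy]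
      rw [Nat.card_coe_set_eq, hset, Set.ncard_coe_finset] at h
      exact h
    refine (card_triples_ge F hFcard).trans (Finset.card_le_card ?_)
    intro p hp
    obtain ⟨-, hd, h1, h2, h3⟩ := Finset.mem_filter.mp hp
    rw [Finset.mem_bipartiteAbove]
    refine ⟨Finset.mem_filter.mpr ⟨Finset.mem_univ _, hd⟩, ?_, ?_, ?_⟩
    · exact (Finset.mem_filter.mp h1).2
    · exact (Finset.mem_filter.mp h2).2
    · exact (Finset.mem_filter.mp h3).2
  -- the right side
  have hR : ∑ p ∈ Tr, (I.bipartiteBelow r p).card ≤ 1331 * 7 := by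
    have hTrcard : Tr.card ≤ 1331 := by
      have h := Finset.card_le_univ Tr
      rw [Fintype.card_prod, Fintype.card_prod, ← Nat.card_eq_fintype_card, h11] at h
      exact h
    have hle : ∀ p ∈ Tr, (I.bipartiteBelow r p).card ≤ 7 := by
      rintro ⟨a, b, c⟩ hp
      obtain ⟨hab, hac, hbc⟩ := (Finset.mem_filter.mp hp).2
      have h8 := hS3 G hG M hM a b c hab hac hbc
      set S3 := (MulAction.stabilizer G a ⊓ MulAction.stabilizer G b ⊓
        MulAction.stabilizer G c : Subgroup G) with hS3def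
      have hnot : (1 : G) ∉ I.bipartiteBelow r (a, b, c) := by
        intro h
        have h' := (Finset.mem_filter.mp ((Finset.mem_bipartiteBelow _).mp h).1).2
        simp at h'
      have hsub : ((insert (1 : G) (I.bipartiteBelow r (a, b, c)) : Finset G) : Set G) ⊆
          (S3 : Set G) := by
        intro s hs
        rcases Finset.mem_insert.mp (Finset.mem_coe.mp hs) with rfl | hs
        · exact S3.one_mem
        · obtain ⟨-, h1, h2, h3⟩ := (Finset.mem_bipartiteBelow _).mp hs
          exact ⟨⟨h1, h2⟩, h3⟩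
      have hle := Set.ncard_le_ncard hsub (Set.toFinite _)
      rw [Set.ncard_coe_finset, Finset.card_insert_of_notMem hnot] at hle
      have h8' : (S3 : Set G).ncard = 8 := by
        rw [← h8, ← Nat.card_coe_set_eq]
        rfl
      omega
    calc ∑ p ∈ Tr, (I.bipartiteBelow r p).card ≤ ∑ _p ∈ Tr, 7 := Finset.sum_le_sum hle
      _ = Tr.card * 7 := by rw [Finset.sum_const, smul_eq_mul]
      _ ≤ 1331 * 7 := Nat.mul_le_mul_right 7 hTrcard
  omega

end Cfsg.Agent.Lib.Helper71.MUFIX2
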