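import Mathlib
import Cfsg.Agent.Lib.Helper41.OMStmt
import Cfsg.Agent.Lib.Helper43.MiBase
import Cfsg.Agent.Lib.Helper64.OFSIEGEL

/-!
# S5978, piece `MSIEGEL`: a Siegel element of order `p` of the minus type form with
`rank (u - 1) = 2`, `rank ((u - 1)²) = 1` (adaptation of `Helper64.OFSIEGEL`).
-/

set_option autoImplicit false

namespace Cfsg.Agent.Lib.Helper71.OMMSIEGEL

open Matrix
open Cfsg.Agent.Lib.Helper94.OrthSiegel Cfsg.Agent.Lib.Helper43.MiBase

universe u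

theorem main : Cfsg.Agent.Lib.Helper41.OMStmt.MSiegel.{u} := by
  intro F _ _ p _ _ hp2 d hd A B hAB
  have h2 : (2 : F) ≠ 0 := by
    intro h
    have h3 : ((2 : ℕ) : F) = 0 := by exact_mod_cast h
    rw [CharP.cast_eq_zero_iff F p] at h3
    have h4 := (Nat.prime_dvd_prime_iff_eq (Fact.out : p.Prime) Nat.prime_two).1 h3
    exact hp2 h4
  have hd0 : 0 < d - 1 := by omega
  have hd1 : 1 < d - 1 := by omega
  have hm : Hy (d - 1) F A B := ⟨by omega, hAB⟩
  have h01 : (⟨0, hd0⟩ : Fin (d - 1)) ≠ ⟨1, hd1⟩ := by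
    intro h
    simp [Fin.ext_iff] at h
  have h10 : (⟨1, hd1⟩ : Fin (d - 1)) ≠ ⟨0, hd0⟩ := fun h => h01 h.symm
  have hQ := hQ hm
  have hbl := hQ.polar_bilinear
  have ha : Cfsg.quadFormMinus (d - 1) F A B (E (Sum.inl ⟨0, hd0⟩)) = 0 := Q_E _
  have haw : QuadraticMap.polar (Cfsg.quadFormMinus (d - 1) F A B) (E (Sum.inl ⟨0, hd0⟩))
      (E (Sum.inl ⟨1, hd1⟩) + E (Sum.inr ⟨1, hd1⟩)) = 0 := by
    rw [polar_E]
    simp [E_fr, h01]
  have hQw : Cfsg.quadFormMinus (d - 1) F A B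
      (E (Sum.inl ⟨1, hd1⟩) + E (Sum.inr ⟨1, hd1⟩)) = 1 := by
    simp [Cfsg.quadFormMinus, E_fr, E_an]
  have hwx : ∀ x, QuadraticMap.polar (Cfsg.quadFormMinus (d - 1) F A B)
      (E (Sum.inl ⟨1, hd1⟩) + E (Sum.inr ⟨1, hd1⟩)) x
        = x (Sum.inl (Sum.inr ⟨1, hd1⟩)) + x (Sum.inl (Sum.inl ⟨1, hd1⟩)) := by
    intro x
    rw [hbl.add_left, polar_E, polar_E]
    rfl
  set a : MI (d - 1) → F := E (Sum.inl ⟨0, hd0⟩) with ha_def
  set w : MI (d - 1) → F := E (Sum.inl ⟨1, hd1⟩) + E (Sum.inr ⟨1, hd1⟩) with hw_def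
  have hu : ∀ x, (sg hQ a w).val *ᵥ x = x + x (Sum.inl (Sum.inr ⟨0, hd0⟩)) • (w - a)
      - (x (Sum.inl (Sum.inl ⟨1, hd1⟩)) + x (Sum.inl (Sum.inr ⟨1, hd1⟩))) • a := by
    intro x
    rw [sg_mulVec hQ a w ha haw, hwx, hQw, ha_def, polar_E]
    simp only [Sum.swap_inl]
    module
  have hN : ∀ x, ((sg hQ a w).val - 1) *ᵥ x = x (Sum.inl (Sum.inr ⟨0, hd0⟩)) • (w - a)
      - (x (Sum.inl (Sum.inl ⟨1, hd1⟩)) + x (Sum.inl (Sum.inr ⟨1, hd1⟩))) • a := by
    intro x
    rw [Matrix.sub_mulVec, hu, Matrix.one_mulVec]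
    abel
  have ca0 : a (Sum.inl (Sum.inr ⟨0, hd0⟩)) = 0 := by simp [ha_def, E_fr]
  have ca1 : a (Sum.inl (Sum.inl ⟨1, hd1⟩)) = 0 := by simp [ha_def, E_fr, h10]
  have ca2 : a (Sum.inl (Sum.inr ⟨1, hd1⟩)) = 0 := by simp [ha_def, E_fr]
  have ca3 : a (Sum.inl (Sum.inl ⟨0, hd0⟩)) = 1 := by simp [ha_def, E_fr]
  have cw0 : w (Sum.inl (Sum.inr ⟨0, hd0⟩)) = 0 := by simp [hw_def, E_fr, h01]
  have cw1 : w (Sum.inl (Sum.inl ⟨1, hd1⟩)) = 1 := by simp [hw_def, E_fr]
  have cw2 : w (Sum.inl (Sum.inr ⟨1, hd1⟩)) = 1 := by simp [hw_def, E_fr]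
  have cw3 : w (Sum.inl (Sum.inl ⟨0, hd0⟩)) = 0 := by simp [hw_def, E_fr, h01]
  have hN2 : ∀ x, (((sg hQ a w).val - 1) * ((sg hQ a w).val - 1)) *ᵥ x
      = (-(2 * x (Sum.inl (Sum.inr ⟨0, hd0⟩)))) • a := by
    intro x
    rw [← Matrix.mulVec_mulVec, hN x, hN]
    simp only [Pi.sub_apply, Pi.smul_apply, smul_eq_mul, ca0, ca1, ca2, cw0, cw1, cw2]
    module
  refine ⟨sg hQ a w, sg_mem_omega hQ (card_ge hm) a w, ?_, ?_, ?_, ?_⟩
  · rw [← Units.val_pow_eq_pow_val, Cfsg.Agent.Lib.Helper64.OFSIEGEL.sg_pow hQ a w ha haw,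
      CharP.cast_eq_zero, zero_smul, sg_zero_right]
    rfl
  · intro z hz
    have h1 := congrFun (hu (E (Sum.inr ⟨0, hd0⟩))) (Sum.inl (Sum.inl ⟨1, hd1⟩))
    rw [hz] at h1
    simp [Matrix.smul_mulVec, E_fr, ca1, cw1] at h1
  · let f : (Fin 2 → F) →ₗ[F] (MI (d - 1) → F) :=
      { toFun := fun c => c 0 • a + c 1 • (w - a)
        map_add' := by
          intro c c'
          simp only [Pi.add_apply]
          module
        map_smul' := by
          intro r c
          simp only [Pi.smul_apply, smul_eq_mul, RingHom.id_apply]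
          module }
    have hfa : ∀ c, f c = c 0 • a + c 1 • (w - a) := fun c => rfl
    have hf : Function.Injective f := by
      rw [← LinearMap.ker_eq_bot, LinearMap.ker_eq_bot']
      intro c hc
      rw [hfa] at hc
      have h1 := congrFun hc (Sum.inl (Sum.inl ⟨1, hd1⟩))
      have h0 := congrFun hc (Sum.inl (Sum.inl ⟨0, hd0⟩))
      simp only [Pi.add_apply, Pi.sub_apply, Pi.smul_apply, smul_eq_mul, ca1, cw1, ca3, cw3,
        Pi.zero_apply] at h1 h0
      have e1 : c 1 = 0 := by linear_combination h1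
      have e0 : c 0 = 0 := by linear_combination h0 + h1
      funext j
      fin_cases j
      · exact e0
      · exact e1
    have hr : LinearMap.range ((sg hQ a w).val - 1).mulVecLin = LinearMap.range f := by
      apply le_antisymm
      · rintro _ ⟨x, rfl⟩
        refine ⟨![-(x (Sum.inl (Sum.inl ⟨1, hd1⟩)) + x (Sum.inl (Sum.inr ⟨1, hd1⟩))),
          x (Sum.inl (Sum.inr ⟨0, hd0⟩))], ?_⟩
        rw [Matrix.mulVecLin_apply, hN, hfa]
        simp only [Matrix.cons_val_zero, Matrix.cons_val_one]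
        module
      · rintro _ ⟨c, rfl⟩
        refine ⟨c 1 • E (Sum.inr ⟨0, hd0⟩) - c 0 • E (Sum.inr ⟨1, hd1⟩), ?_⟩
        rw [Matrix.mulVecLin_apply, hN, hfa]
        simp only [Pi.sub_apply, Pi.smul_apply, smul_eq_mul, E_fr]
        simp [h01, h10]
        module
    unfold Matrix.rank
    rw [hr, LinearMap.finrank_range_of_inj hf]
    simp
  · let f : F →ₗ[F] (MI (d - 1) → F) :=
      { toFun := fun c => c • a
        map_add' := by
          intro c c'
          module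
        map_smul' := by
          intro r c
          simp only [smul_eq_mul, RingHom.id_apply]
          module }
    have hfa : ∀ c, f c = c • a := fun c => rfl
    have hf : Function.Injective f := by
      rw [← LinearMap.ker_eq_bot, LinearMap.ker_eq_bot']
      intro c hc
      rw [hfa] at hc
      have h0 := congrFun hc (Sum.inl (Sum.inl ⟨0, hd0⟩))
      simpa [ca3] using h0
    have hr : LinearMap.range (((sg hQ a w).val - 1) * ((sg hQ a w).val - 1)).mulVecLin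
        = LinearMap.range f := by
      apply le_antisymm
      · rintro _ ⟨x, rfl⟩
        refine ⟨-(2 * x (Sum.inl (Sum.inr ⟨0, hd0⟩))), ?_⟩
        rw [Matrix.mulVecLin_apply, hN2, hfa]
      · rintro _ ⟨c, rfl⟩
        refine ⟨(-(c / 2)) • E (Sum.inr ⟨0, hd0⟩), ?_⟩
        rw [Matrix.mulVecLin_apply, hN2, hfa]
        simp only [Pi.smul_apply, smul_eq_mul, E_fr]
        simp
        congr 1
        field_simp
    unfold Matrix.rank
    rw [hr, LinearMap.finrank_range_of_inj hf]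
    simp

end Cfsg.Agent.Lib.Helper71.OMMSIEGEL
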