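import Mathlib
import Cfsg.Agent.Lib.Lead.OrdTypeStmt

/-!
# S3998, piece `CNTCONGR` (second seat)

Groups with the same order type have the same rough counts: glue the fibre bijections into a
bijection `G ≃ H` preserving element orders.
-/

set_option autoImplicit false

namespace Cfsg.Agent.Lib.Helper71.OTCNTCONGR

open Cfsg.Agent.Lib.Lead.OrdTypeStmt

universe u v

theorem main : CntCongr.{u, v} := by
  intro G _ _ H _ _ hcard t
  have hne : ∀ m : ℕ, Nonempty ({g : G // orderOf g = m} ≃ {h : H // orderOf h = m}) :=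
    fun m => Finite.card_eq.1 (hcard m)
  have em : ∀ m : ℕ, {g : G // orderOf g = m} ≃ {h : H // orderOf h = m} :=
    fun m => Classical.choice (hne m)
  let e : G ≃ H := (Equiv.sigmaFiberEquiv (orderOf : G → ℕ)).symm.trans
    ((Equiv.sigmaCongrRight em).trans (Equiv.sigmaFiberEquiv (orderOf : H → ℕ)))
  have he : ∀ g : G, orderOf (e g) = orderOf g := by
    intro g
    exact (em (orderOf g) ⟨g, rfl⟩).2
  unfold cnt
  apply Nat.card_congr
  refine e.subtypeEquiv (fun g => ?_)
  show g ∈ rough G t ↔ e g ∈ rough H t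
  unfold rough
  simp only [Set.mem_ofPred_eq, he]

end Cfsg.Agent.Lib.Helper71.OTCNTCONGR
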