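import Mathlib
import Cfsg.Agent.Lib.Helper18.Ree27
import Cfsg.Agent.Lib.Helper36.ChevBC

/-! S2127 piece FROB (helper71): the Frobenius map `t ↦ t ^ 3` induces an automorphism of the
small Ree group, acting on the parameters of `reeU` and `eta` by cubing. -/

set_option autoImplicit false

namespace Cfsg.Agent.Lib.Helper71.ReeOutFROB

open Cfsg Cfsg.Lie Cfsg.Agent.Lib.Helper18 Cfsg.Agent.Lib.Helper18.Ree1
  Cfsg.Agent.Lib.Helper18.Ree2 Cfsg.Agent.Lib.Helper18.Ree4 Cfsg.Agent.Lib.Helper18.Ree5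
  Cfsg.Agent.Lib.Helper18.Ree7 Cfsg.Agent.Lib.Helper36

variable {K : Type*} [Field K]

/-- The entrywise map sends the matrix of a word to the matrix of the mapped word. -/
theorem glMap_wg (f : K →+* K) (w : List (ℕ × K)) :
    Matrix.GeneralLinearGroup.map (n := chevG2.Idx) f (wg K w) =
      wg K (w.map fun p => (p.1, f p.2)) := by
  apply Units.ext
  rw [ChevBC.coe_glMap, coe_wg, coe_wg, ChevBC.wordMat_map]

theorem map_reeWordU (f : K →+* K) (e : ℕ) (t u v : K) :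
    ((reeWordU e t u v).map fun p => (p.1, f p.2)) = reeWordU e (f t) (f u) (f v) := by
  simp only [reeWordU, List.map_cons, List.map_nil, map_add, map_pow]

theorem map_reeWordV (f : K →+* K) (e : ℕ) (t u v : K) :
    ((reeWordV e t u v).map fun p => (p.1, f p.2)) = reeWordV e (f t) (f u) (f v) := by
  simp only [reeWordV, reeWordU, ChevalleyDatum.negWord, List.map_cons, List.map_nil, map_add,
    map_pow, map_neg]

theorem map_hWord (f : K →+* K) (r : ℕ) (t : K) :
    ((chevG2.hWord r t).map fun p => (p.1, f p.2)) = chevG2.hWord r (f t) := by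
  simp [ChevalleyDatum.hWord, ChevalleyDatum.nWord, map_neg, map_inv₀]

theorem glMap_hx (f : K →+* K) (r : ℕ) (t : K) :
    Matrix.GeneralLinearGroup.map (n := chevG2.Idx) f (hx K r t) = hx K r (f t) := by
  unfold hx
  rw [glMap_wg, map_hWord]

theorem glMap_mem (f : K →+* K) (e : ℕ) :
    ∀ g ∈ twistedG2 K e, Matrix.GeneralLinearGroup.map (n := chevG2.Idx) f g ∈ twistedG2 K e := by
  have h : twistedG2 K e ≤
      (twistedG2 K e).comap (Matrix.GeneralLinearGroup.map (n := chevG2.Idx) f) := by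
    unfold twistedG2 ChevalleyDatum.genSubgroup
    rw [Subgroup.closure_le]
    rintro g ⟨w, ⟨t, u, v, hw | hw⟩, hg⟩
    · subst hw
      refine Subgroup.mem_comap.mpr (Subgroup.subset_closure ?_)
      refine ⟨reeWordU e (f t) (f u) (f v), ⟨f t, f u, f v, Or.inl rfl⟩, ?_⟩
      rw [ChevBC.coe_glMap, hg, ChevBC.wordMat_map, map_reeWordU]
    · subst hw
      refine Subgroup.mem_comap.mpr (Subgroup.subset_closure ?_)
      refine ⟨reeWordV e (f t) (f u) (f v), ⟨f t, f u, f v, Or.inr rfl⟩, ?_⟩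
      rw [ChevBC.coe_glMap, hg, ChevBC.wordMat_map, map_reeWordV]
  exact fun g hg => h hg

theorem main {K : Type*} [Field K] [Fintype K] {m : ℕ} (hK : Fintype.card K = 3 ^ (2 * m + 1))
    (φ : K →+* K) (hφ : ∀ x, φ x = x ^ 3 ^ m) :
    ∃ F : MulAut ↥(Cfsg.Lie.twistedG2 K (3 ^ m)),
      (∀ (g : ↥(Cfsg.Lie.twistedG2 K (3 ^ m))) (t u v : K),
        (g : GL Cfsg.Lie.chevG2.Idx K) = Ree2.reeU φ t u v →
        ((F g : ↥(Cfsg.Lie.twistedG2 K (3 ^ m))) : GL Cfsg.Lie.chevG2.Idx K) =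
          Ree2.reeU φ (t ^ 3) (u ^ 3) (v ^ 3)) ∧
      (∀ (g : ↥(Cfsg.Lie.twistedG2 K (3 ^ m))) (s : K), s ≠ 0 →
        (g : GL Cfsg.Lie.chevG2.Idx K) = Ree7.eta φ s →
        ((F g : ↥(Cfsg.Lie.twistedG2 K (3 ^ m))) : GL Cfsg.Lie.chevG2.Idx K) =
          Ree7.eta φ (s ^ 3)) := by
  haveI := Ree4.charP3 hK
  classical
  set Φ : GL chevG2.Idx K →* GL chevG2.Idx K :=
    Matrix.GeneralLinearGroup.map (n := chevG2.Idx) (frobenius K 3) with hΦ
  have hmem : ∀ g ∈ twistedG2 K (3 ^ m), Φ g ∈ twistedG2 K (3 ^ m) :=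
    glMap_mem (frobenius K 3) (3 ^ m)
  let ψ : ↥(twistedG2 K (3 ^ m)) →* ↥(twistedG2 K (3 ^ m)) :=
    (Φ.comp (twistedG2 K (3 ^ m)).subtype).codRestrict (twistedG2 K (3 ^ m))
      (fun g => hmem g.1 g.2)
  have hinj : Function.Injective ψ := by
    intro a b hab
    have h1 : Φ a.1 = Φ b.1 := congrArg Subtype.val hab
    exact Subtype.ext (ChevBC.glMap_injective (frobenius K 3) chevG2 h1)
  have hbij : Function.Bijective ψ := ⟨hinj, Finite.injective_iff_surjective.mp hinj⟩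
  refine ⟨MulEquiv.ofBijective ψ hbij, ?_, ?_⟩
  · intro g t u v hg
    show Φ g.1 = _
    rw [hg, ← wg_reeWordU hφ, hΦ, glMap_wg, map_reeWordU, wg_reeWordU hφ]
    simp only [frobenius_def]
  · intro g s hs hg
    show Φ g.1 = _
    rw [hg]
    unfold eta
    rw [map_mul, hΦ, glMap_hx, glMap_hx]
    simp only [frobenius_def, map_pow]

end Cfsg.Agent.Lib.Helper71.ReeOutFROB
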