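import Mathlib
import Cfsg.Agent.Lib.Helper40.SFStmt
import Cfsg.Agent.Lib.Helper40.KStr

/-! S5664 piece COMMB (helper71, second seat): the Siegel element from rank-one data. -/

set_option autoImplicit false

namespace Cfsg.Agent.Lib.Helper71.SFCOMMB

open Cfsg.Agent.Lib.Helper40.SFStmt Cfsg.Agent.Lib.Helper94.Basic
open Cfsg.Agent.Lib.Helper40

universe u

theorem main (h : CommA.{u}) : CommB.{u} := by
  intro F L _ _ _ _ n c hfin γ hγ v ϑ κ hϑ hκ _H1 H2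
  obtain ⟨es, hes⟩ := KStr.exists_rep c.τ c.hτ ϑ
  have hes0 : es ≠ 0 := by
    rintro rfl
    apply hϑ
    ext a
    rw [hes a, mul_zero, map_zero]
    rfl
  obtain ⟨δ₂, hδ₂⟩ : ∃ δ₂ : L, ϑ δ₂ = 1 := by
    have hex : ∃ a, ϑ a ≠ 0 := by
      by_contra hcon
      simp only [not_exists, not_not] at hcon
      exact hϑ (LinearMap.ext hcon)
    obtain ⟨a, ha⟩ := hex
    refine ⟨(ϑ a)⁻¹ • a, ?_⟩
    rw [map_smul, smul_eq_mul, inv_mul_cancel₀ ha]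
  obtain ⟨δ₁, hδ₁0, hδ₁⟩ : ∃ δ₁ : L, δ₁ ≠ 0 ∧ ϑ δ₁ = 0 := by
    have hrn := LinearMap.finrank_range_add_finrank_ker ϑ
    have hr : Module.finrank F (LinearMap.range ϑ) ≤ 1 := by
      have h1 := Submodule.finrank_le (LinearMap.range ϑ)
      rwa [Module.finrank_self] at h1
    have hk : 0 < Module.finrank F (LinearMap.ker ϑ) := by omega
    obtain ⟨x, hx⟩ := Module.finrank_pos_iff_exists_ne_zero.mp hk
    exact ⟨x.1, fun h0 => hx (Subtype.ext h0), x.2⟩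
  -- the two facts
  have Fiso : ∀ x y : W n L, ff c.τ (γ.symm x) y = ff c.τ x (γ y) := by
    intro x y
    have h1 := c.isom γ hγ (γ.symm x) y
    rw [LinearEquiv.apply_symm_apply] at h1
    exact h1.symm
  have F1 : ∀ a : L, Cfsg.sympForm n L (γ (a • v)) v = (κ * ϑ a) • es := by
    intro a
    apply KStr.tau_inj c.τ c.hτ
    intro a'
    have h1 := H2 a a'
    rw [ff_lsmul_right] at h1
    rw [h1, mul_smul_comm, map_smul, smul_eq_mul, hes a']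
  have F2 : ∀ a : L, Cfsg.sympForm n L (γ.symm (a • v)) v = (-(κ * ϑ a)) • es := by
    intro a
    apply KStr.tau_inj c.τ c.hτ
    intro a'
    have h1 : c.τ (a' * Cfsg.sympForm n L (γ.symm (a • v)) v) = -(κ * ϑ a' * ϑ a) := by
      rw [← ff_lsmul_right, Fiso, ff_skew, H2]
    rw [h1, mul_smul_comm, map_smul, smul_eq_mul, hes a']
    ring
  -- the elements
  set a₁ : L := es⁻¹ * δ₁ with ha₁
  set a₂ : L := es⁻¹ * δ₂ with ha₂
  have ha₁es : a₁ * es = δ₁ := by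
    rw [ha₁, mul_comm es⁻¹, mul_assoc, inv_mul_cancel₀ hes0, mul_one]
  have ha₂es : a₂ * es = δ₂ := by
    rw [ha₂, mul_comm es⁻¹, mul_assoc, inv_mul_cancel₀ hes0, mul_one]
  set s₁ : W n L ≃ₗ[F] W n L := (ltv v a₁).restrictScalars F with hs₁
  set s₂ : W n L ≃ₗ[F] W n L := γ * (ltv v a₂).restrictScalars F * γ⁻¹ with hs₂
  have hs₁M : s₁ ∈ c.M := c.hsub (ltv v a₁) (ltv_isom v a₁)
  have hs₂M : s₂ ∈ c.M :=
    c.M.mul_mem (c.M.mul_mem hγ (c.hsub (ltv v a₂) (ltv_isom v a₂))) (c.M.inv_mem hγ)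
  set e₁ : W n L := δ₁ • v with he₁
  set e₂ : W n L := γ (δ₂ • v) with he₂
  have hN₁ : ∀ x, s₁ x - x = (a₁ * Cfsg.sympForm n L x v) • v := by
    intro x
    show ltv v a₁ x - x = _
    rw [ltv_apply, add_sub_cancel_left]
  have hN₂ : ∀ x, s₂ x - x = γ ((a₂ * Cfsg.sympForm n L (γ.symm x) v) • v) := by
    intro x
    show γ (ltv v a₂ (γ.symm x)) - x = _
    rw [ltv_apply, map_add, LinearEquiv.apply_symm_apply, add_sub_cancel_left]
  have hϑ₁ : ∀ x, ϑ (a₁ * Cfsg.sympForm n L x v) = ff c.τ x e₁ := by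
    intro x
    rw [hes, he₁, ff_lsmul_right, mul_right_comm, ha₁es]
  have hϑ₂ : ∀ x, ϑ (a₂ * Cfsg.sympForm n L (γ.symm x) v) = ff c.τ x e₂ := by
    intro x
    rw [hes, he₂, ← Fiso, ff_lsmul_right, mul_right_comm, ha₂es]
  have hN₁γ : ∀ a : L, s₁ (γ (a • v)) - γ (a • v) = (κ * ϑ a) • e₁ := by
    intro a
    rw [hN₁, F1, mul_smul_comm, ha₁es, smul_assoc]
  have hN₂v : ∀ a : L, s₂ (a • v) - a • v = (-(κ * ϑ a)) • e₂ := by
    intro a
    rw [hN₂, F2, mul_smul_comm, ha₂es, smul_assoc, map_smul]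
  have hvv : ∀ a : L, Cfsg.sympForm n L v (a • v) = 0 := by
    intro a
    rw [sympForm_smul_right, sympForm_self, mul_zero]
  -- the hypotheses of `CommA`
  have C1 : ∀ x, s₁ (s₂ x) - s₂ x - s₁ x + x = (κ * ff c.τ x e₂) • e₁ := by
    intro x
    have e : s₂ x = x + γ ((a₂ * Cfsg.sympForm n L (γ.symm x) v) • v) := by
      rw [← hN₂ x]
      abel
    have h1 := hN₁γ (a₂ * Cfsg.sympForm n L (γ.symm x) v)
    rw [hϑ₂ x] at h1
    rw [e, map_add, ← h1]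
    abel
  have C2 : ∀ x, s₂ (s₁ x) - s₁ x - s₂ x + x = (-(κ * ff c.τ x e₁)) • e₂ := by
    intro x
    have e : s₁ x = x + (a₁ * Cfsg.sympForm n L x v) • v := by
      rw [← hN₁ x]
      abel
    have h1 := hN₂v (a₁ * Cfsg.sympForm n L x v)
    rw [hϑ₁ x] at h1
    rw [e, map_add, ← h1]
    abel
  have C3 : ∀ x, ff c.τ (s₁ x - x) e₁ = 0 := by
    intro x
    rw [hN₁, ff_lsmul_left, he₁, hvv, mul_zero, map_zero]
  have C4 : ∀ x, ff c.τ (s₂ x - x) e₁ = 0 := by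
    intro x
    rw [hN₂, he₁, H2, hδ₁, mul_zero]
  have C5 : ∀ x, ff c.τ (s₂ x - x) e₂ = 0 := by
    intro x
    rw [hN₂, he₂, c.isom γ hγ, ff_lsmul_left, hvv, mul_zero, map_zero]
  have C6 : ∀ x, ff c.τ (s₁ x - x) e₂ = -(κ * ff c.τ x e₁) := by
    intro x
    rw [hN₁, he₂, ff_skew, H2, hδ₂, mul_one, hϑ₁]
  have C7 : ff c.τ e₂ e₁ = 0 := by
    rw [he₂, he₁, H2, hδ₁, mul_zero]
  have hS := h F L n c.τ s₁ s₂ e₁ e₂ κ C1 C2 C3 C4 C5 C6 C7
  have hv : v ≠ 0 := by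
    rintro rfl
    have h1 := H2 δ₂ δ₂
    rw [smul_zero, map_zero, ff_self, hδ₂, mul_one, mul_one] at h1
    exact hκ h1.symm
  refine ⟨s₁ * s₂ * (s₂ * s₁)⁻¹,
    c.M.mul_mem (c.M.mul_mem hs₁M hs₂M) (c.M.inv_mem (c.M.mul_mem hs₂M hs₁M)),
    e₁, κ • e₂, κ ^ 2, smul_ne_zero hδ₁0 hv, ?_, ?_, hS⟩
  · rw [ff_smul_left, C7, mul_zero]
  · rw [smulF, sympForm_smul_left, he₂, he₁, sympForm_smul_right, F1, hδ₂, mul_one]
    refine mul_ne_zero ((map_ne_zero _).mpr hκ) (mul_ne_zero hδ₁0 (smul_ne_zero hκ hes0))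

end Cfsg.Agent.Lib.Helper71.SFCOMMB
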