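import Mathlib
import Cfsg.Agent.Lib.Helper9.Small100
import Cfsg.Agent.Lib.Helper17.CentFix
import Cfsg.Agent.Lib.Helper17.SylowSub
import Cfsg.Agent.S0904
import Cfsg.Agent.S0985

set_option autoImplicit false

namespace Cfsg.Agent.Lib.Helper71.Sieve496

open Subgroup MulAction
open Cfsg.Agent.Lib.Helper17.Sylow Cfsg.Agent.Lib.Helper17.Sylow2
open Cfsg.Agent.Lib.Helper17.CentFix Cfsg.Agent.Lib.Helper17.Commuting
open Cfsg.Agent.Lib.Helper17.Parity Cfsg.Agent.Lib.Helper17.FixedPoints
open Cfsg.Agent.Lib.Helper17.SylowSub Cfsg.Agent.Lib.Helper17.Embed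
open Cfsg.Agent.Lib.Helper17.Classes

section General

variable {G : Type*} [Group G] [Finite G]

/-- Distinct Sylow subgroups `P`, `R` with `[P : P ∩ R] ≤ p`: the intersection has index `p`. -/
theorem card_inf_of_index_le {p : ℕ} [Fact p.Prime] (P R : Sylow p G) (hPR : P ≠ R)
    (h : ((R : Subgroup G).subgroupOf (P : Subgroup G)).index ≤ p) :
    Nat.card ((P : Subgroup G) ⊓ (R : Subgroup G) : Subgroup G) * p =
      Nat.card (P : Subgroup G) := by
  have hp : p.Prime := Fact.out
  have h1 : ((P : Subgroup G) ⊓ (R : Subgroup G)).relIndex (P : Subgroup G) =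
      ((R : Subgroup G).subgroupOf (P : Subgroup G)).index := by
    rw [Subgroup.inf_relIndex_left]; rfl
  have h2 := card_mul_relIndex (inf_le_left : (P : Subgroup G) ⊓ (R : Subgroup G) ≤ (P : Subgroup G))
  rw [h1] at h2
  obtain ⟨k, hk⟩ := (P.isPGroup').exists_card_eq
  have hdvd : ((R : Subgroup G).subgroupOf (P : Subgroup G)).index ∣ p ^ k := by
    rw [← hk, ← h2]; exact dvd_mul_left _ _
  obtain ⟨j, hj, hij⟩ := (Nat.dvd_prime_pow hp).1 hdvd
  rw [hij] at h h2
  have hj1 : j ≤ 1 := by
    by_contra hcon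
    push Not at hcon
    have : p ^ 2 ≤ p ^ j := Nat.pow_le_pow_right hp.pos hcon
    have h3 : p * p ≤ p := by rw [← sq]; exact this.trans h
    have := hp.two_le
    nlinarith
  interval_cases j
  · exfalso
    rw [pow_zero, mul_one] at h2
    have hle : (P : Subgroup G) ≤ (P : Subgroup G) ⊓ (R : Subgroup G) := by
      have := Subgroup.eq_of_le_of_card_ge
        (inf_le_left : (P : Subgroup G) ⊓ (R : Subgroup G) ≤ (P : Subgroup G)) (by rw [h2])
      rw [this]
    have hPR' : (P : Subgroup G) ≤ (R : Subgroup G) := hle.trans inf_le_right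
    apply hPR
    apply Sylow.ext
    exact Subgroup.eq_of_le_of_card_ge hPR' (by rw [Sylow.card_eq_multiplicity, Sylow.card_eq_multiplicity])
  · rw [pow_one] at h2
    exact h2

/-- An element whose order does not divide `|H|` fixes no coset of `H`. -/
theorem no_fixed_of_not_dvd (H : Subgroup G) (d : G) (hd : ¬ orderOf d ∣ Nat.card H)
    (x : G ⧸ H) : d • x ≠ x := by
  induction x using QuotientGroup.induction_on with
  | H g =>
    intro hfix
    have hmem := (coset_fixed_iff H d g).mp hfix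
    have h1 := orderOf_dvd_card_of_mem hmem
    have h2 : orderOf (g⁻¹ * d * g) = orderOf d := by
      have := orderOf_conj_eq g⁻¹ d
      rwa [inv_inv] at this
    rw [h2] at h1
    exact hd h1

end General

variable {G : Type*} [Group G] [Finite G] [IsSimpleGroup G]

/-- A non-abelian simple group does not have order `p^a q^b`. -/
theorem kill_pq (hG : ¬ IsMulCommutative G) (p q a b : ℕ) (hp : p.Prime) (hq : q.Prime)
    (h : Nat.card G = p ^ a * q ^ b) : False := by
  have hc := Cfsg.Agent.Lib.Helper9.Small100.isCyclic_of_card_pq p q a b hp hq h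
  exact hG (isMulCommutative_iff.mpr (fun x y => (IsCyclic.commGroup (α := G)).mul_comm x y))

/-- A simple group does not have order `2m`, `m > 1` odd. -/
theorem kill_two_odd (m : ℕ) (hm1 : 1 < m) (hodd : ¬ 2 ∣ m) (h : Nat.card G = 2 * m) : False :=
  Cfsg.Agent.Lib.Helper9.Small100.not_simple_two_mul_odd m hm1 hodd h inferInstance

/-- The basic Sylow sieve. -/
theorem kill_sylow (hG : ¬ IsMulCommutative G) (n p k m : ℕ) (hp : p.Prime)
    (hn : Nat.card G = n) (hnk : n = p ^ k * m) (hk : 0 < k) (hm : ¬ p ∣ m)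
    (H : ∀ d ∈ Nat.divisors m, d % p = 1 → d ≠ 1 → 2 * n ∣ d.factorial →
      (k = 1 → ∃ r ∈ Nat.divisors (p - 1), r ≠ 1 ∧ r * p ∣ n / d) → False) : False := by
  have : Fact p.Prime := ⟨hp⟩
  have hN : Nat.card G = p ^ k * m := hn.trans hnk
  have hpd : p ∣ Nat.card G := by
    rw [hN]; exact dvd_mul_of_dvd_left (dvd_pow_self p hk.ne') m
  have hm0 : m ≠ 0 := by rintro rfl; exact hm (dvd_zero p)
  have hd := card_sylow_dvd hN hm
  have hmod := card_sylow_mod (G := G) p
  have hne := card_sylow_ne_one hG hpd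
  have hf := two_mul_card_dvd_factorial_card_sylow hG hpd
  rw [hn] at hf
  refine H _ (Nat.mem_divisors.mpr ⟨hd, hm0⟩) hmod hne hf ?_
  intro hk1
  obtain ⟨P⟩ : Nonempty (Sylow p G) := inferInstance
  have hP : Nat.card (P : Subgroup G) = p := by
    have := card_sylow_subgroup hN hm P
    rwa [hk1, pow_one] at this
  obtain ⟨r, hr1, hr2, hr3⟩ := sylow_prime_relIndex hG P hP
  have hNn := card_normalizer_mul_card_sylow P
  rw [hn] at hNn
  have hNeq : Nat.card (normalizer ((P : Subgroup G) : Set G)) = n / Nat.card (Sylow p G) := by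
    rw [← hNn]; exact (Nat.mul_div_cancel _ (Nat.card_pos)).symm
  refine ⟨r, Nat.mem_divisors.mpr ⟨hr2, ?_⟩, hr1, hNeq ▸ hr3⟩
  have := hp.two_le; omega

/-- Sieve using self-centralizing Sylow subgroups of prime order (S0904). -/
theorem kill_pqr (hG : ¬ IsMulCommutative G) (n p q r a b : ℕ) (hp : p.Prime) (hq : q.Prime)
    (hr : r.Prime) (hpq : p ≠ q) (hpr : p ≠ r) (hqr : q ≠ r) (hn : Nat.card G = n)
    (hnk : n = p ^ a * q ^ b * r)
    (H : ∀ d ∈ Nat.divisors (p ^ a * q ^ b), d % r = 1 →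
      ∀ r' ∈ Nat.divisors (r - 1), r' ≠ 1 → r * r' * d ≠ n) : False := by
  have : Fact r.Prime := ⟨hr⟩
  have hN : Nat.card G = r ^ 1 * (p ^ a * q ^ b) := by rw [hn, hnk]; ring
  have hm : ¬ r ∣ p ^ a * q ^ b := by
    intro h
    rcases (Nat.Prime.dvd_mul hr).1 h with h | h
    · exact hpr ((Nat.prime_dvd_prime_iff_eq hr hp).1 (hr.dvd_of_dvd_pow h)).symm
    · exact hqr ((Nat.prime_dvd_prime_iff_eq hr hq).1 (hr.dvd_of_dvd_pow h)).symm
  have hm0 : p ^ a * q ^ b ≠ 0 := by rintro h0; exact hm (h0 ▸ dvd_zero r)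
  obtain ⟨S⟩ : Nonempty (Sylow r G) := inferInstance
  have hS : Nat.card (S : Subgroup G) = r := by
    simpa using card_sylow_subgroup hN hm S
  have hC : centralizer ((S : Subgroup G) : Set G) = (S : Subgroup G) :=
    Cfsg.Agent.S0904.result p q r a b hp hq hpq hpr hqr (hn.trans hnk) S
  obtain ⟨r', h1, h2, h3, h4⟩ := sylow_prime_centralizer hG S hS
  rw [hC, hS] at h3
  have hNn := card_normalizer_mul_card_sylow S
  rw [← h3, hn] at hNn
  have hr2 := hr.two_le
  exact H _ (Nat.mem_divisors.mpr ⟨card_sylow_dvd hN hm, hm0⟩) (card_sylow_mod r) r'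
    (Nat.mem_divisors.mpr ⟨h2, by omega⟩) h1 hNn

/-- No simple group of order 420. -/
theorem no_420 (hG : ¬ IsMulCommutative G) (h : Nat.card G = 420) : False := by
  have : Fact (Nat.Prime 7) := ⟨by norm_num⟩
  have : Fact (Nat.Prime 2) := ⟨by norm_num⟩
  have hN : Nat.card G = 7 ^ 1 * 60 := h.trans (by norm_num)
  have h7 : 7 ∣ Nat.card G := by rw [h]; norm_num
  have hd := card_sylow_dvd hN (by norm_num)
  have hm := card_sylow_mod (G := G) 7
  have hne := card_sylow_ne_one hG h7
  have key : ∀ n ∈ Nat.divisors 60, n % 7 = 1 → n = 1 ∨ n = 15 := by decide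
  have hn : Nat.card (Sylow 7 G) = 15 := by
    rcases key _ (Nat.mem_divisors.mpr ⟨hd, by norm_num⟩) hm with h1 | h1
    · exact absurd h1 hne
    · exact h1
  obtain ⟨P⟩ : Nonempty (Sylow 7 G) := inferInstance
  have hP : Nat.card (P : Subgroup G) = 7 := by
    simpa using card_sylow_subgroup hN (by norm_num) P
  have hNn := card_normalizer_mul_card_sylow P
  rw [hn, h] at hNn
  have hidx : (normalizer ((P : Subgroup G) : Set G)).index = 15 := by
    rw [← hn]; exact (P.card_eq_index_normalizer).symm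
  obtain ⟨r, hr1, hr6, hCr, hC7⟩ := sylow_prime_centralizer hG P hP
  have h6 : ∀ r ∈ Nat.divisors 6, r = 1 ∨ r = 2 ∨ r = 3 ∨ r = 6 := by decide
  have hCe : Even (Nat.card (centralizer ((P : Subgroup G) : Set G))) := by
    rw [Nat.even_iff]
    obtain ⟨c, hc⟩ := hC7
    rcases h6 r (Nat.mem_divisors.mpr ⟨hr6, by norm_num⟩) with rfl | rfl | rfl | rfl <;> omega
  obtain ⟨t, htC, ht⟩ :=
    exists_mem_orderOf_eq_prime (centralizer ((P : Subgroup G) : Set G)) 2 hCe.two_dvd
  obtain ⟨k, h1, h2, h3⟩ := involution_fix_data hG P hP t ht htC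
  rw [hidx] at h2 h3
  omega

/-- No simple group of order 840. -/
theorem no_840 (hG : ¬ IsMulCommutative G) (h : Nat.card G = 840) : False := by
  have : Fact (Nat.Prime 7) := ⟨by norm_num⟩
  have : Fact (Nat.Prime 2) := ⟨by norm_num⟩
  have : Fact (Nat.Prime 5) := ⟨by norm_num⟩
  have hN : Nat.card G = 7 ^ 1 * 120 := h.trans (by norm_num)
  have h7 : 7 ∣ Nat.card G := by rw [h]; norm_num
  have hd := card_sylow_dvd hN (by norm_num)
  have hm := card_sylow_mod (G := G) 7
  have hne := card_sylow_ne_one hG h7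
  have key : ∀ n ∈ Nat.divisors 120, n % 7 = 1 → n = 1 ∨ n = 8 ∨ n = 15 ∨ n = 120 := by decide
  obtain ⟨P⟩ : Nonempty (Sylow 7 G) := inferInstance
  have hP : Nat.card (P : Subgroup G) = 7 := by
    simpa using card_sylow_subgroup hN (by norm_num) P
  have hNn := card_normalizer_mul_card_sylow P
  rw [h] at hNn
  have hidx : (normalizer ((P : Subgroup G) : Set G)).index = Nat.card (Sylow 7 G) :=
    (P.card_eq_index_normalizer).symm
  obtain ⟨r, hr1, hr6, hCr, hC7⟩ := sylow_prime_centralizer hG P hP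
  have h6 : ∀ r ∈ Nat.divisors 6, r = 1 ∨ r = 2 ∨ r = 3 ∨ r = 6 := by decide
  have hr := h6 r (Nat.mem_divisors.mpr ⟨hr6, by norm_num⟩)
  obtain ⟨c, hc⟩ := hC7
  rcases key _ (Nat.mem_divisors.mpr ⟨hd, by norm_num⟩) hm with hn | hn | hn | hn
  · exact absurd hn hne
  · -- n = 8, |N| = 105, |C| = 35
    rw [hn] at hNn
    have hC : Nat.card (centralizer ((P : Subgroup G) : Set G)) = 35 := by
      rcases hr with rfl | rfl | rfl | rfl <;> omega
    obtain ⟨y, hyC, hy⟩ :=
      exists_mem_orderOf_eq_prime (centralizer ((P : Subgroup G) : Set G)) 5 (by rw [hC]; norm_num)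
    have hy1 : y ≠ 1 := by
      rintro rfl
      rw [orderOf_one] at hy
      omega
    have hy5 : y ^ (5 ^ 1) = 1 := by
      rw [pow_one, ← hy]; exact pow_orderOf_eq_one y
    have h1 := card_fixedBy_mod_of_mem_centralizer P hP y hyC
    have h2 := card_modEq_card_fixedBy
      (X := G ⧸ normalizer ((P : Subgroup G) : Set G)) y hy5
    have h3 := card_fixedBy_lt_index _ (normalizer_sylow_ne_top hG h7 P) y hy1
    have hX : Nat.card (G ⧸ normalizer ((P : Subgroup G) : Set G)) = 8 := hidx.trans hn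
    rw [hidx, hn] at h3
    rw [hX, Nat.ModEq] at h2
    omega
  · -- n = 15, |N| = 56, |C| = 28
    rw [hn] at hNn
    have hCe : Even (Nat.card (centralizer ((P : Subgroup G) : Set G))) := by
      rw [Nat.even_iff]
      rcases hr with rfl | rfl | rfl | rfl <;> omega
    obtain ⟨t, htC, ht⟩ :=
      exists_mem_orderOf_eq_prime (centralizer ((P : Subgroup G) : Set G)) 2 hCe.two_dvd
    obtain ⟨k, h1, h2, h3⟩ := involution_fix_data hG P hP t ht htC
    rw [hidx, hn] at h2 h3
    omega
  · -- n = 120, |N| = 7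
    rw [hn] at hNn
    rcases hr with rfl | rfl | rfl | rfl <;> omega

/-- No simple group of order 760. -/
theorem no_760 (hG : ¬ IsMulCommutative G) (h : Nat.card G = 760) : False := by
  have : Fact (Nat.Prime 19) := ⟨by norm_num⟩
  have : Fact (Nat.Prime 2) := ⟨by norm_num⟩
  have hN : Nat.card G = 19 ^ 1 * 40 := h.trans (by norm_num)
  have h19 : 19 ∣ Nat.card G := by rw [h]; norm_num
  have hd := card_sylow_dvd hN (by norm_num)
  have hm := card_sylow_mod (G := G) 19
  have hne := card_sylow_ne_one hG h19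
  have key : ∀ n ∈ Nat.divisors 40, n % 19 = 1 → n = 1 ∨ n = 20 := by decide
  have hn : Nat.card (Sylow 19 G) = 20 := by
    rcases key _ (Nat.mem_divisors.mpr ⟨hd, by norm_num⟩) hm with h1 | h1
    · exact absurd h1 hne
    · exact h1
  obtain ⟨P⟩ : Nonempty (Sylow 19 G) := inferInstance
  have hP : Nat.card (P : Subgroup G) = 19 := by
    simpa using card_sylow_subgroup hN (by norm_num) P
  have hNn := card_normalizer_mul_card_sylow P
  rw [hn, h] at hNn
  obtain ⟨r, hr1, hr18, hCr, hC19⟩ := sylow_prime_centralizer hG P hP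
  have h18 : ∀ r ∈ Nat.divisors 18, r = 1 ∨ r = 2 ∨ r = 3 ∨ r = 6 ∨ r = 9 ∨ r = 18 := by decide
  have hC : Nat.card (centralizer ((P : Subgroup G) : Set G)) = 19 := by
    obtain ⟨c, hc⟩ := hC19
    rcases h18 r (Nat.mem_divisors.mpr ⟨hr18, by norm_num⟩) with rfl | rfl | rfl | rfl | rfl | rfl <;>
      omega
  obtain ⟨t, htN, ht⟩ :=
    exists_mem_orderOf_eq_prime (normalizer ((P : Subgroup G) : Set G)) 2 ⟨19, by omega⟩
  have htC : t ∉ centralizer ((P : Subgroup G) : Set G) := by
    intro hc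
    have := orderOf_dvd_card_of_mem hc
    rw [ht, hC] at this
    omega
  have ht2 : t ^ 2 = 1 := by rw [← ht]; exact pow_orderOf_eq_one t
  obtain ⟨f, k, o, h1, h2, h3, h4⟩ := sylow_involution_test hG P hP t ht2 htN htC
  rw [hn] at h3 h4
  omega


/-- No simple group of order 900. -/
theorem no_900 (hG : ¬ IsMulCommutative G) (h : Nat.card G = 900) : False := by
  have : Fact (Nat.Prime 5) := ⟨by norm_num⟩
  have hN : Nat.card G = 5 ^ 2 * 36 := h.trans (by norm_num)
  have h5 : 5 ∣ Nat.card G := by rw [h]; norm_num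
  have hd := card_sylow_dvd hN (by norm_num)
  have hm := card_sylow_mod (G := G) 5
  have hne := card_sylow_ne_one hG h5
  have hf := two_mul_card_dvd_factorial_card_sylow hG h5
  rw [h] at hf
  have key : ∀ n ∈ Nat.divisors 36, n % 5 = 1 → n ≠ 1 → 2 * 900 ∣ n.factorial → n = 36 := by
    decide +kernel
  have hn : Nat.card (Sylow 5 G) = 36 := key _ (Nat.mem_divisors.mpr ⟨hd, by norm_num⟩) hm hne hf
  obtain ⟨P⟩ : Nonempty (Sylow 5 G) := inferInstance
  have hP : Nat.card (P : Subgroup G) = 25 := by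
    simpa using card_sylow_subgroup hN (by norm_num) P
  have hNn := card_normalizer_mul_card_sylow P
  rw [hn, h] at hNn
  have hNc : Nat.card (normalizer ((P : Subgroup G) : Set G)) = 25 := by omega
  apply not_normalizer_le_centralizer hG h5 P
  have hle : (P : Subgroup G) ≤ normalizer ((P : Subgroup G) : Set G) := le_normalizer
  have heq : (P : Subgroup G) = normalizer ((P : Subgroup G) : Set G) :=
    Subgroup.eq_of_le_of_card_ge hle (by rw [hP, hNc])
  intro x hx
  rw [← heq] at hx
  rw [mem_centralizer_iff]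
  intro y hy
  have hcomm := (IsPGroup.isMulCommutative_of_card_eq_prime_sq (p := 5) (G := (P : Subgroup G))
    (by rw [hP]; norm_num)).is_comm.comm ⟨y, hy⟩ ⟨x, hx⟩
  exact congrArg Subtype.val hcomm

/-- No simple group of order 960. -/
theorem no_960 (hG : ¬ IsMulCommutative G) (h : Nat.card G = 960) : False := by
  have : Fact (Nat.Prime 2) := ⟨by norm_num⟩
  have hN : Nat.card G = 2 ^ 6 * 15 := h.trans (by norm_num)
  have h2 : 2 ∣ Nat.card G := by rw [h]; norm_num
  have hd := card_sylow_dvd hN (by norm_num)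
  have hm := card_sylow_mod (G := G) 2
  have hne := card_sylow_ne_one hG h2
  have hf := two_mul_card_dvd_factorial_card_sylow hG h2
  rw [h] at hf
  have key : ∀ n ∈ Nat.divisors 15, n % 2 = 1 → n ≠ 1 → 2 * 960 ∣ n.factorial → n = 15 := by
    decide +kernel
  have hn : Nat.card (Sylow 2 G) = 15 := key _ (Nat.mem_divisors.mpr ⟨hd, by norm_num⟩) hm hne hf
  obtain ⟨P, R, hPR, hidx⟩ := Cfsg.Agent.S0985.result (G := G) 2 2 (by rw [hn]; decide)
  have hP : Nat.card (P : Subgroup G) = 64 := by
    simpa using card_sylow_subgroup hN (by norm_num) P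
  have hR : Nat.card (R : Subgroup G) = 64 := by
    simpa using card_sylow_subgroup hN (by norm_num) R
  have hD := card_inf_of_index_le P R hPR (by simpa using hidx)
  rw [hP] at hD
  have hDc : Nat.card ((P : Subgroup G) ⊓ (R : Subgroup G) : Subgroup G) = 32 := by omega
  have hrP : ((P : Subgroup G) ⊓ (R : Subgroup G)).relIndex (P : Subgroup G) = 2 := by
    have := card_mul_relIndex (inf_le_left : (P : Subgroup G) ⊓ (R : Subgroup G) ≤ (P : Subgroup G))
    rw [hDc, hP] at this
    omega
  have hrR : ((P : Subgroup G) ⊓ (R : Subgroup G)).relIndex (R : Subgroup G) = 2 := by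
    have := card_mul_relIndex (inf_le_right : (P : Subgroup G) ⊓ (R : Subgroup G) ≤ (R : Subgroup G))
    rw [hDc, hR] at this
    omega
  have hPM := le_normalizer_of_relIndex_prime P.isPGroup' inf_le_left hrP
  have hRM := le_normalizer_of_relIndex_prime R.isPGroup' inf_le_right hrR
  obtain ⟨h1, h2', h3⟩ := card_sylow_of_two P R hPR _ hPM hRM
  rw [hP] at h3
  have hMtop : normalizer (((P : Subgroup G) ⊓ (R : Subgroup G) : Subgroup G) : Set G) ≠ ⊤ := by
    intro htop
    have hnorm : ((P : Subgroup G) ⊓ (R : Subgroup G)).Normal := Subgroup.normalizer_eq_top_iff.mp htop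
    rcases hnorm.eq_bot_or_eq_top with e | e
    · rw [e, Subgroup.card_bot] at hDc; omega
    · rw [e, Subgroup.card_top, h] at hDc; omega
  have hfM := two_mul_card_dvd_factorial hG _ hMtop
  rw [h] at hfM
  have hci := (normalizer (((P : Subgroup G) ⊓ (R : Subgroup G) : Subgroup G) : Set G)).card_mul_index
  rw [h] at hci
  obtain ⟨c, hc⟩ := h3
  rw [hc] at hci
  have hidx1 : (normalizer (((P : Subgroup G) ⊓ (R : Subgroup G) : Subgroup G) : Set G)).index ≠ 1 := by
    intro h1'
    exact hMtop (Subgroup.index_eq_one.mp h1')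
  generalize (normalizer (((P : Subgroup G) ⊓ (R : Subgroup G) : Subgroup G) : Set G)).index = i at hci hfM hidx1
  generalize Nat.card (Sylow 2 ↥(normalizer (((P : Subgroup G) ⊓ (R : Subgroup G) : Subgroup G) : Set G))) = s at hci h1 h2'
  have hi : s * c * i = 15 := by nlinarith
  have hi15 : i ∈ Nat.divisors 15 := Nat.mem_divisors.mpr ⟨⟨s * c, by rw [← hi]; ring⟩, by norm_num⟩
  have k15 : ∀ i ∈ Nat.divisors 15, i = 1 ∨ i = 3 ∨ i = 5 ∨ i = 15 := by decide
  rcases k15 i hi15 with rfl | rfl | rfl | rfl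
  · exact hidx1 rfl
  · revert hfM; decide
  · revert hfM; decide
  · have : s * c = 1 := by omega
    have hs : s = 1 := Nat.eq_one_of_mul_eq_one_right this
    exact h1 hs


/-- No simple group of order 612. -/
theorem no_612 (hG : ¬ IsMulCommutative G) (h : Nat.card G = 612) : False := by
  have : Fact (Nat.Prime 17) := ⟨by norm_num⟩
  have : Fact (Nat.Prime 3) := ⟨by norm_num⟩
  have : Fact (Nat.Prime 2) := ⟨by norm_num⟩
  -- Sylow 17
  have hN : Nat.card G = 17 ^ 1 * 36 := h.trans (by norm_num)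
  have h17 : 17 ∣ Nat.card G := by rw [h]; norm_num
  have hd := card_sylow_dvd hN (by norm_num)
  have hm := card_sylow_mod (G := G) 17
  have hne := card_sylow_ne_one hG h17
  have key : ∀ n ∈ Nat.divisors 36, n % 17 = 1 → n = 1 ∨ n = 18 := by decide
  have hn : Nat.card (Sylow 17 G) = 18 := by
    rcases key _ (Nat.mem_divisors.mpr ⟨hd, by norm_num⟩) hm with h1 | h1
    · exact absurd h1 hne
    · exact h1
  obtain ⟨P⟩ : Nonempty (Sylow 17 G) := inferInstance
  have hP : Nat.card (P : Subgroup G) = 17 := by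
    simpa using card_sylow_subgroup hN (by norm_num) P
  have hNn := card_normalizer_mul_card_sylow P
  rw [hn, h] at hNn
  have hNc : Nat.card (normalizer ((P : Subgroup G) : Set G)) = 34 := by omega
  have hidx : (normalizer ((P : Subgroup G) : Set G)).index = 18 := by
    rw [← hn]; exact (P.card_eq_index_normalizer).symm
  obtain ⟨r, hr1, hr16, hCr, hC17⟩ := sylow_prime_centralizer hG P hP
  have h16 : ∀ r ∈ Nat.divisors 16, r = 1 ∨ r = 2 ∨ r = 4 ∨ r = 8 ∨ r = 16 := by decide
  have hC : Nat.card (centralizer ((P : Subgroup G) : Set G)) = 17 := by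
    obtain ⟨c, hc⟩ := hC17
    rcases h16 r (Nat.mem_divisors.mpr ⟨hr16, by norm_num⟩) with rfl | rfl | rfl | rfl | rfl <;>
      omega
  -- Sylow 3
  have hN3 : Nat.card G = 3 ^ 2 * 68 := h.trans (by norm_num)
  have h3 : 3 ∣ Nat.card G := by rw [h]; norm_num
  have hd3 := card_sylow_dvd hN3 (by norm_num)
  have hm3 := card_sylow_mod (G := G) 3
  have hne3 := card_sylow_ne_one hG h3
  have hf3 := two_mul_card_dvd_factorial_card_sylow hG h3
  rw [h] at hf3
  have key3 : ∀ n ∈ Nat.divisors 68, n % 3 = 1 → n ≠ 1 → 2 * 612 ∣ n.factorial → n = 34 := by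
    decide +kernel
  have hn3 : Nat.card (Sylow 3 G) = 34 :=
    key3 _ (Nat.mem_divisors.mpr ⟨hd3, by norm_num⟩) hm3 hne3 hf3
  obtain ⟨Q, R, hQR, hidxQ⟩ := Cfsg.Agent.S0985.result (G := G) 3 2 (by rw [hn3]; decide)
  have hQ : Nat.card (Q : Subgroup G) = 9 := by
    simpa using card_sylow_subgroup hN3 (by norm_num) Q
  have hR : Nat.card (R : Subgroup G) = 9 := by
    simpa using card_sylow_subgroup hN3 (by norm_num) R
  have hD := card_inf_of_index_le Q R hQR (by simpa using hidxQ)
  rw [hQ] at hD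
  have hDc : Nat.card ((Q : Subgroup G) ⊓ (R : Subgroup G) : Subgroup G) = 3 := by omega
  -- Q, R centralize D
  have hQab := (IsPGroup.isMulCommutative_of_card_eq_prime_sq (p := 3) (G := (Q : Subgroup G))
    (by rw [hQ]; norm_num)).is_comm.comm
  have hRab := (IsPGroup.isMulCommutative_of_card_eq_prime_sq (p := 3) (G := (R : Subgroup G))
    (by rw [hR]; norm_num)).is_comm.comm
  have hQK : (Q : Subgroup G) ≤
      centralizer (((Q : Subgroup G) ⊓ (R : Subgroup G) : Subgroup G) : Set G) := by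
    intro x hx
    rw [mem_centralizer_iff]
    intro y hy
    exact congrArg Subtype.val (hQab ⟨y, hy.1⟩ ⟨x, hx⟩)
  have hRK : (R : Subgroup G) ≤
      centralizer (((Q : Subgroup G) ⊓ (R : Subgroup G) : Subgroup G) : Set G) := by
    intro x hx
    rw [mem_centralizer_iff]
    intro y hy
    exact congrArg Subtype.val (hRab ⟨y, hy.2⟩ ⟨x, hx⟩)
  obtain ⟨k1, k2, k3⟩ := card_sylow_of_two Q R hQR _ hQK hRK
  rw [hQ] at k3
  -- K ≠ ⊤
  have hKtop : centralizer (((Q : Subgroup G) ⊓ (R : Subgroup G) : Subgroup G) : Set G) ≠ ⊤ := by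
    intro htop
    have hle : (Q : Subgroup G) ⊓ (R : Subgroup G) ≤ center G := by
      intro x hx
      rw [Subgroup.mem_center_iff]
      intro g
      have hg : g ∈ centralizer (((Q : Subgroup G) ⊓ (R : Subgroup G) : Subgroup G) : Set G) := by
        rw [htop]; exact Subgroup.mem_top g
      exact (mem_centralizer_iff.mp hg x hx).symm
    rcases (inferInstance : (center G).Normal).eq_bot_or_eq_top with e | e
    · rw [e, le_bot_iff] at hle
      rw [hle, Subgroup.card_bot] at hDc
      omega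
    · apply hG
      rw [isMulCommutative_iff]
      intro a b
      have ha : a ∈ center G := by rw [e]; exact Subgroup.mem_top a
      exact (Subgroup.mem_center_iff.mp ha b).symm
  have hfK := two_mul_card_dvd_factorial hG _ hKtop
  rw [h] at hfK
  have hci := (centralizer (((Q : Subgroup G) ⊓ (R : Subgroup G) : Subgroup G) : Set G)).card_mul_index
  rw [h] at hci
  have hidx1 : (centralizer (((Q : Subgroup G) ⊓ (R : Subgroup G) : Subgroup G) : Set G)).index ≠ 1 := by
    intro h1'
    exact hKtop (Subgroup.index_eq_one.mp h1')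
  have hKeven : 2 ∣ Nat.card (centralizer (((Q : Subgroup G) ⊓ (R : Subgroup G) : Subgroup G) : Set G)) := by
    obtain ⟨c, hc⟩ := k3
    rw [hc] at hci
    generalize (centralizer (((Q : Subgroup G) ⊓ (R : Subgroup G) : Subgroup G) : Set G)).index = i
      at hci hfK hidx1
    generalize Nat.card (Sylow 3 ↥(centralizer (((Q : Subgroup G) ⊓ (R : Subgroup G) : Subgroup G) : Set G))) = s
      at hci k1 k2 hc
    have hi : s * c * i = 68 := by nlinarith
    have hs68 : s ∈ Nat.divisors 68 := Nat.mem_divisors.mpr ⟨⟨c * i, by rw [← hi]; ring⟩, by norm_num⟩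
    have k68 : ∀ s ∈ Nat.divisors 68, s % 3 = 1 → s = 1 ∨ s = 4 ∨ s = 34 := by decide
    rcases k68 s hs68 k2 with rfl | rfl | rfl
    · exact absurd rfl k1
    · rw [hc]; exact ⟨2 * 9 * c, by ring⟩
    · exfalso
      have hci2 : c * i = 2 := by
        have h34 : 34 * (c * i) = 68 := by rw [← mul_assoc]; exact hi
        omega
      have hi2 : i ∈ Nat.divisors 2 := Nat.mem_divisors.mpr ⟨⟨c, by rw [← hci2]; ring⟩, by norm_num⟩
      have k2' : ∀ i ∈ Nat.divisors 2, i = 1 ∨ i = 2 := by decide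
      rcases k2' i hi2 with rfl | rfl
      · exact hidx1 rfl
      · revert hfK; decide
  obtain ⟨t, htK, ht⟩ := exists_mem_orderOf_eq_prime _ 2 hKeven
  obtain ⟨d, hdD, hdo⟩ := exists_mem_orderOf_eq_prime ((Q : Subgroup G) ⊓ (R : Subgroup G)) 3
    (by rw [hDc])
  have hcomm : Commute t d := (mem_centralizer_iff.mp htK d hdD).symm
  -- fixed points on cosets of N(P)
  have hdfix : ∀ x : G ⧸ normalizer ((P : Subgroup G) : Set G), d • x ≠ x :=
    no_fixed_of_not_dvd _ d (by rw [hdo, hNc]; decide)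
  have hd3' : d ^ (3 ^ 1) = 1 := by rw [pow_one, ← hdo]; exact pow_orderOf_eq_one d
  have hmod := card_fixedBy_modEq_of_commute
    (X := G ⧸ normalizer ((P : Subgroup G) : Set G)) t d hcomm hd3'
  have hemp : Nat.card {x : G ⧸ normalizer ((P : Subgroup G) : Set G) // t • x = x ∧ d • x = x} = 0 := by
    have : IsEmpty {x : G ⧸ normalizer ((P : Subgroup G) : Set G) // t • x = x ∧ d • x = x} :=
      ⟨fun x => hdfix x.1 x.2.2⟩
    exact Nat.card_of_isEmpty
  rw [hemp, Nat.ModEq] at hmod
  have ht2 : t ^ 2 = 1 := by rw [← ht]; exact pow_orderOf_eq_one t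
  have ht1 : t ≠ 1 := by
    rintro rfl
    rw [orderOf_one] at ht
    omega
  obtain ⟨k, hk⟩ := involution_moved hG (X := G ⧸ normalizer ((P : Subgroup G) : Set G)) t ht2
  have hX : Nat.card (G ⧸ normalizer ((P : Subgroup G) : Set G)) = 18 := hidx
  rw [hX] at hk
  have hlt := card_fixedBy_lt_index _ (normalizer_sylow_ne_top hG h17 P) t ht1
  rw [hidx] at hlt
  have hfix6 : Nat.card (fixedBy (G ⧸ normalizer ((P : Subgroup G) : Set G)) t) = 6 := by omega
  -- t fixes a coset
  have hne' : Nonempty (fixedBy (G ⧸ normalizer ((P : Subgroup G) : Set G)) t) := by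
    by_contra hcon
    rw [not_nonempty_iff] at hcon
    rw [Nat.card_of_isEmpty] at hfix6
    omega
  obtain ⟨⟨x, hx⟩⟩ := hne'
  induction x using QuotientGroup.induction_on with
  | H g =>
    have hmem := (coset_fixed_iff _ t g).mp hx
    have hso : orderOf (g⁻¹ * t * g) = 2 := by
      have := orderOf_conj_eq g⁻¹ t
      rwa [inv_inv, ht] at this
    have hsC : g⁻¹ * t * g ∉ centralizer ((P : Subgroup G) : Set G) := by
      intro hc
      have := orderOf_dvd_card_of_mem hc
      rw [hso, hC] at this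
      omega
    have hle := card_fixedBy_le_card_orbits P hP (g⁻¹ * t * g) hmem hsC
    have horb := card_orbits_mul P hP
    rw [hX] at horb
    rw [card_fixedBy_conj, hfix6] at hle
    omega


end Cfsg.Agent.Lib.Helper71.Sieve496
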