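import Mathlib

/-!
For every `n ≠ 0` there is a prime `p > n` and a unit of `ZMod p` of order exactly `n`.
-/

set_option autoImplicit false

namespace Cfsg.Agent.Lib.Helper71.ZModUnits

theorem exists_prime_unit_of_order (n : ℕ) (hn : n ≠ 0) :
    ∃ p : ℕ, p.Prime ∧ n < p ∧ ∃ z : (ZMod p)ˣ, orderOf z = n := by
  obtain ⟨p, hp, hnp, hmod⟩ := Nat.exists_prime_gt_modEq_one n hn
  have hpf : Fact p.Prime := ⟨hp⟩
  refine ⟨p, hp, hnp, ?_⟩
  have hdvd : n ∣ p - 1 := (Nat.modEq_iff_dvd' hp.one_lt.le).1 hmod.symm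
  obtain ⟨g, hg⟩ := IsCyclic.exists_ofOrder_eq_natCard (α := (ZMod p)ˣ)
  rw [Nat.card_eq_fintype_card, ZMod.card_units] at hg
  have hp1 : p - 1 ≠ 0 := by have := hp.two_le; omega
  have hk0 : (p - 1) / n ≠ 0 := by
    intro h
    rw [Nat.div_eq_zero_iff] at h
    rcases h with h | h
    · exact hn h
    · exact absurd (Nat.le_of_dvd (Nat.pos_of_ne_zero hp1) hdvd) (not_le.2 h)
  refine ⟨g ^ ((p - 1) / n), ?_⟩
  rw [orderOf_pow_of_dvd hk0 (by rw [hg]; exact Nat.div_dvd_of_dvd hdvd), hg,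
    Nat.div_div_self hdvd hp1]

end Cfsg.Agent.Lib.Helper71.ZModUnits
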